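import Mathlib

/-!
# The critical case behind Hall–Higman

A `p`-element acts fixed point freely (modulo the centre) on a normal `q`-subgroup that is
irreducible on a module in characteristic `p`. Every endomorphism commuting with the element is a
scalar plus a trace over the cyclic group, which pins down the degree of the minimal polynomial.
-/

set_option autoImplicit false

namespace Cfsg.Agent.H20.Critical

open Module Finset

variable {K : Type*} [Field K] {V : Type*} [AddCommGroup V] [Module K V]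

/-- An endomorphism commuting with an irreducible family over an algebraically closed field is a
scalar. -/
theorem exists_scalar [IsAlgClosed K] [FiniteDimensional K V] [Nontrivial V] {Q : Type*}
    (f : Q → Module.End K V)
    (hirr : ∀ W : Submodule K V, (∀ g, ∀ w ∈ W, f g w ∈ W) → W = ⊥ ∨ W = ⊤) (φ : Module.End K V)
    (hφ : ∀ g, Commute (f g) φ) : ∃ c : K, φ = c • (1 : Module.End K V) := by
  obtain ⟨c, hc⟩ := Module.End.exists_eigenvalue φ
  refine ⟨c, ?_⟩
  have hW : Module.End.eigenspace φ c = ⊤ := (hirr _ fun g w hw => by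
    rw [Module.End.mem_eigenspace_iff] at hw ⊢
    rw [← Module.End.mul_apply, ← (hφ g).eq, Module.End.mul_apply, hw, map_smul]).resolve_left hc
  ext v
  have hv : v ∈ Module.End.eigenspace φ c := hW ▸ Submodule.mem_top
  simpa using Module.End.mem_eigenspace_iff.mp hv

/-- An irreducible representation of a `q`-group over an algebraically closed field has degree a
power of `q`. -/
theorem finrank_eq_prime_pow [IsAlgClosed K] {q : ℕ} [Fact q.Prime] :
    ∀ (n : ℕ) (Q : Type*) [Group Q] [Finite Q], Nat.card Q ≤ n → IsPGroup q Q →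
      ∀ (V : Type _) [AddCommGroup V] [Module K V] [FiniteDimensional K V] [Nontrivial V]
        (ρ : Representation K Q V),
        (∀ W : Submodule K V, (∀ g, ∀ w ∈ W, ρ g w ∈ W) → W = ⊥ ∨ W = ⊤) →
        ∃ b : ℕ, finrank K V = q ^ b := by
  intro n
  induction n with
  | zero => intro Q _ _ h; exact absurd h (by have := Nat.card_pos (α := Q); omega)
  | succ n ih =>
  intro Q _ _ hn hQ V _ _ _ _ ρ hirr
  classical
  set A : Subgroup Q :=
    { carrier := {g | ∀ h, Commute (ρ g) (ρ h)}
      one_mem' := fun h => by rw [map_one]; exact Commute.one_left _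
      mul_mem' := fun {a b} ha hb h => by rw [map_mul]; exact (ha h).mul_left (hb h)
      inv_mem' := fun {a} ha h => by
        show ρ a⁻¹ * ρ h = ρ h * ρ a⁻¹
        calc ρ a⁻¹ * ρ h = ρ a⁻¹ * (ρ h * ρ a) * ρ a⁻¹ := by
              simp only [← map_mul, mul_assoc, mul_inv_cancel, mul_one]
          _ = ρ a⁻¹ * (ρ a * ρ h) * ρ a⁻¹ := by rw [(ha h).eq]
          _ = ρ h * ρ a⁻¹ := by simp only [← map_mul, inv_mul_cancel_left] }
  have hscal : ∀ g ∈ A, ∃ c : K, ρ g = c • (1 : Module.End K V) := fun g hg =>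
    exists_scalar ρ hirr (ρ g) fun h => (hg h).symm
  by_cases hA : A = ⊤
  · refine ⟨0, ?_⟩
    obtain ⟨v, hv⟩ := exists_ne (0 : V)
    have h1 : (K ∙ v) = ⊤ := (hirr _ fun g w hw => by
      obtain ⟨c, hc⟩ := hscal g (hA ▸ Subgroup.mem_top g)
      rw [hc]
      simpa using Submodule.smul_mem _ c hw).resolve_left (by simpa using hv)
    rw [pow_zero, ← finrank_top K V, ← h1]
    exact finrank_span_singleton hv
  · haveI hAn : A.Normal := ⟨fun g hg h k => by
      obtain ⟨c, hc⟩ := hscal g hg
      have : ρ (h * g * h⁻¹) = c • (1 : Module.End K V) := by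
        rw [map_mul, map_mul, hc, mul_smul_comm, mul_one, smul_mul_assoc, ← map_mul, mul_inv_cancel,
          map_one]
      show ρ (h * g * h⁻¹) * ρ k = ρ k * ρ (h * g * h⁻¹)
      rw [this, smul_mul_assoc, one_mul, mul_smul_comm, mul_one]⟩
    haveI : Nontrivial (Q ⧸ A) := by
      obtain ⟨g, hg⟩ : ∃ g, g ∉ A := not_forall.mp fun h => hA (eq_top_iff.mpr fun g _ => h g)
      exact ⟨⟨(g : Q ⧸ A), 1, fun h => hg ((QuotientGroup.eq_one_iff g).mp h)⟩⟩
    haveI := (hQ.to_quotient A).center_nontrivial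
    obtain ⟨⟨a', ha'⟩, hne⟩ := exists_ne (1 : Subgroup.center (Q ⧸ A))
    obtain ⟨a, rfl⟩ := QuotientGroup.mk_surjective a'
    have haA : a ∉ A := fun h => hne (Subtype.ext ((QuotientGroup.eq_one_iff a).mpr h))
    have hex : ∀ g, ∃ c : K, ρ a * ρ g = c • (ρ g * ρ a) := fun g => by
      have hmem : a * g * a⁻¹ * g⁻¹ ∈ A := by
        rw [← QuotientGroup.eq_one_iff]
        simp only [QuotientGroup.mk_mul, QuotientGroup.mk_inv]
        rw [← Subgroup.mem_center_iff.mp ha' (g : Q ⧸ A)]
        group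
      obtain ⟨c, hc⟩ := hscal _ hmem
      refine ⟨c, ?_⟩
      rw [← map_mul, ← map_mul, show a * g = a * g * a⁻¹ * g⁻¹ * (g * a) by group, map_mul, hc,
        smul_mul_assoc, one_mul]
    choose c hc using hex
    have huniq : ∀ g (u : K), ρ a * ρ g = u • (ρ g * ρ a) → u = c g := fun g u hu => by
      have h2 : ρ (g * a) ≠ 0 := fun h => by
        have := congrArg (fun f => ρ (g * a)⁻¹ * f) h
        simp only [← map_mul, inv_mul_cancel, map_one, mul_zero] at this
        exact one_ne_zero this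
      rw [map_mul] at h2
      exact smul_left_injective K h2 (hu.symm.trans (hc g))
    have hmul : ∀ g h, c (g * h) = c g * c h := fun g h => (huniq _ _ (by
      rw [map_mul, ← mul_assoc, hc, smul_mul_assoc, mul_assoc, hc, mul_smul_comm, smul_smul,
        mul_assoc])).symm
    let χ : Q →* K :=
      { toFun := c
        map_one' := (huniq 1 1 (by simp)).symm
        map_mul' := hmul }
    set T := χ.toHomUnits.ker
    have hT : ∀ g, g ∈ T ↔ c g = 1 := fun g => by
      show χ.toHomUnits g = 1 ↔ _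
      rw [← Units.val_eq_one]
      rfl
    obtain ⟨μ, hμ⟩ := Module.End.exists_eigenvalue (ρ a)
    have hμ0 : μ ≠ 0 := fun h => by
      obtain ⟨w, hw⟩ := hμ.exists_hasEigenvector
      have h1 := hw.apply_eq_smul
      rw [h, zero_smul] at h1
      exact hw.2 ((ρ.apply_bijective a).1 (h1.trans (map_zero _).symm))
    set W := Module.End.eigenspace (ρ a) μ
    have hmap : ∀ g, ∀ w ∈ W, ρ g w ∈ Module.End.eigenspace (ρ a) (c g * μ) := fun g w hw => by
      rw [Module.End.mem_eigenspace_iff] at hw ⊢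
      rw [← Module.End.mul_apply, hc, LinearMap.smul_apply, Module.End.mul_apply, hw, map_smul,
        smul_smul]
    have hWT : ∀ g ∈ T, ∀ w ∈ W, ρ g w ∈ W := fun g hg w hw => by
      have := hmap g w hw
      rwa [(hT g).mp hg, one_mul] at this
    let σ : Representation K T W :=
      { toFun := fun t => (ρ t).restrict (hWT t t.2)
        map_one' := by ext w; simp
        map_mul' := fun s t => by ext w; simp }
    haveI : Nontrivial W := Submodule.nontrivial_iff_ne_bot.mpr hμ
    set Γ := χ.toHomUnits.range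
    let E : Γ → Submodule K V := fun γ => Module.End.eigenspace (ρ a) (((γ : Kˣ) : K) * μ)
    have hind : iSupIndep E :=
      (Module.End.eigenspaces_iSupIndep (ρ a)).comp fun γ δ h =>
        Subtype.ext (Units.ext (mul_right_cancel₀ hμ0 h))
    have hspan : ∀ U : Submodule K V, U ≤ W → U ≠ ⊥ → (∀ g ∈ T, ∀ w ∈ U, ρ g w ∈ U) →
        U ⊔ (⨆ γ ≠ (1 : Γ), E γ) = ⊤ := fun U hUW hU hUT => by
      have htop : (⨆ g, U.map (ρ g)) = ⊤ := (hirr _ fun g w hw => by
        refine Submodule.iSup_induction _ (motive := fun w => ρ g w ∈ ⨆ g, U.map (ρ g)) hw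
          (fun h w hw => ?_) (by simp) (fun x y hx hy => by rw [map_add]; exact add_mem hx hy)
        obtain ⟨u, hu, rfl⟩ := hw
        refine Submodule.mem_iSup_of_mem (g * h) ⟨u, hu, ?_⟩
        rw [map_mul, Module.End.mul_apply]).resolve_left fun h => hU (by
        refine eq_bot_iff.mpr fun u hu => ?_
        have h1 : ρ 1 u ∈ ⨆ g, U.map (ρ g) := Submodule.mem_iSup_of_mem 1 ⟨u, hu, rfl⟩
        rw [h] at h1
        simpa using h1)
      rw [eq_top_iff, ← htop]
      refine iSup_le fun g => ?_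
      rintro _ ⟨u, hu, rfl⟩
      by_cases hg : g ∈ T
      · exact Submodule.mem_sup_left (hUT g hg u hu)
      · refine Submodule.mem_sup_right ?_
        refine Submodule.mem_iSup_of_mem ⟨χ.toHomUnits g, g, rfl⟩ (Submodule.mem_iSup_of_mem ?_ ?_)
        · exact fun h => hg (congrArg Subtype.val h)
        · exact hmap g u (hUW hu)
    have hdisj : Disjoint W (⨆ γ ≠ (1 : Γ), E γ) := by
      have := hind (1 : Γ)
      simpa [E] using this
    have hWirr : ∀ U : Submodule K W, (∀ t, ∀ w ∈ U, σ t w ∈ U) → U = ⊥ ∨ U = ⊤ := fun U hU => by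
      refine or_iff_not_imp_left.mpr fun hU0 => ?_
      have h1 := hspan (U.map W.subtype) (Submodule.map_subtype_le W U)
        (fun h => hU0 (Submodule.map_injective_of_injective W.injective_subtype
          (by rw [h, Submodule.map_bot])))
        (fun g hg w hw => by
          obtain ⟨u, hu, rfl⟩ := hw
          exact ⟨σ ⟨g, hg⟩ u, hU _ u hu, rfl⟩)
      refine eq_top_iff.mpr fun w _ => ?_
      obtain ⟨u, hu, o, ho, huo⟩ := Submodule.mem_sup.mp (h1 ▸ Submodule.mem_top (x := (w : V)))
      have ho0 : o = 0 := Submodule.disjoint_def.mp hdisj o (by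
        rw [show o = (w : V) - u by rw [← huo]; abel]
        exact sub_mem w.2 (Submodule.map_subtype_le W U hu)) ho
      obtain ⟨u', hu', rfl⟩ := hu
      rw [ho0, add_zero] at huo
      rwa [← Subtype.ext huo]
    have hTlt : Nat.card T ≤ n := by
      have hne : T ≠ ⊤ := fun h => haA fun g => by
        have := hc g
        rwa [(hT g).mp (h ▸ Subgroup.mem_top g), one_smul] at this
      have h1 := T.card_mul_index
      have h2 : 2 ≤ T.index := by
        have := T.index_ne_zero_of_finite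
        have : T.index ≠ 1 := fun h => hne (Subgroup.index_eq_one.mp h)
        omega
      have : 0 < Nat.card T := Nat.card_pos
      nlinarith
    obtain ⟨b, hb⟩ := ih T hTlt (hQ.to_subgroup T) W σ hWirr
    obtain ⟨t, ht⟩ := hQ.index T
    refine ⟨t + b, ?_⟩
    haveI : Finite Γ := Finite.of_surjective _ χ.toHomUnits.rangeRestrict_surjective
    haveI : Fintype Γ := Fintype.ofFinite _
    have hsup : iSup E = ⊤ := by
      rw [eq_top_iff, ← hspan W le_rfl hμ hWT]
      refine sup_le ?_ (iSup₂_le fun γ _ => le_iSup E γ)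
      refine le_trans (le_of_eq ?_) (le_iSup E 1)
      simp [E, W]
    have hint : DirectSum.IsInternal E :=
      (DirectSum.isInternal_submodule_iff_iSupIndep_and_iSup_eq_top E).mpr ⟨hind, hsup⟩
    have hdim : ∀ γ : Γ, finrank K (E γ) = finrank K W := by
      rintro ⟨_, g, rfl⟩
      refine LinearEquiv.finrank_eq (LinearEquiv.ofBijective
        ((ρ g⁻¹).restrict (p := E ⟨_, g, rfl⟩) (q := W) fun v hv => ?_) ⟨?_, ?_⟩)
      · rw [Module.End.mem_eigenspace_iff] at hv
        rw [Module.End.mem_eigenspace_iff]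
        rw [← Module.End.mul_apply, hc, LinearMap.smul_apply, Module.End.mul_apply, hv, map_smul,
          smul_smul]
        congr 1
        show c g⁻¹ * (c g * μ) = μ
        rw [← mul_assoc, ← hmul, inv_mul_cancel, (huniq 1 1 (by simp)).symm, one_mul]
      · exact fun v w h => Subtype.ext ((ρ.apply_bijective g⁻¹).1 (congrArg Subtype.val h))
      · exact fun w => ⟨⟨ρ g w, hmap g w w.2⟩, Subtype.ext (ρ.inv_self_apply g (w : V))⟩
    rw [← (LinearEquiv.ofBijective (DirectSum.coeLinearMap E) hint).finrank_eq,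
      finrank_directSum, Finset.sum_congr rfl fun γ _ => hdim γ, Finset.sum_const, Finset.card_univ,
      smul_eq_mul, ← Nat.card_eq_fintype_card, ← Subgroup.index_ker, ht, hb, pow_add]

/-- The endomorphisms commuting with `x` are scalars plus traces over `⟨x⟩`. -/
theorem exists_scalar_add_trace [IsAlgClosed K] [FiniteDimensional K V] [Nontrivial V]
    {G : Type*} [Group G] [Finite G] {p q : ℕ} [Fact p.Prime] [Fact q.Prime] [CharP K p]
    (hpq : p ≠ q) (ρ : Representation K G V) (Q : Subgroup G) [Q.Normal] (hQ : IsPGroup q Q)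
    (hirr : ∀ W : Submodule K V, (∀ g : Q, ∀ w ∈ W, ρ g w ∈ W) → W = ⊥ ∨ W = ⊤)
    (x : G) (hx : IsPGroup p (Subgroup.zpowers x))
    (hC : ∀ y ∈ Subgroup.zpowers x, y ≠ 1 →
      Subgroup.centralizer ({y} : Set G) = Subgroup.zpowers x ⊔ Subgroup.center G)
    (φ : Module.End K V) (hφ : Commute (ρ x) φ) :
    ∃ (l : K) (ψ : Module.End K V),
      φ = l • 1 + ∑ i ∈ range (orderOf x), ρ (x ^ i) * ψ * ρ (x ^ i)⁻¹ := by
  classical
  haveI := Fintype.ofFinite G
  set N : Subgroup G := Q ⊓ Subgroup.center G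
  let Ad : G →* Module.End K (Module.End K V) :=
    { toFun := fun g => LinearMap.mulLeft K (ρ g) ∘ₗ LinearMap.mulRight K (ρ g⁻¹)
      map_one' := by ext; simp
      map_mul' := fun g h => by ext; simp [mul_inv_rev, mul_assoc] }
  have hAd : ∀ g f, Ad g f = ρ g * f * ρ g⁻¹ := fun g f => (mul_assoc _ _ _).symm
  have hAdN : ∀ g ∈ N, Ad g = 1 := fun g hg => by
    obtain ⟨c, hc⟩ := exists_scalar (fun h : Q => ρ h) hirr (ρ g) fun h => by
      show ρ h * ρ g = ρ g * ρ h
      rw [← map_mul, ← map_mul, Subgroup.mem_center_iff.mp hg.2]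
    ext1 f
    have h1 : ρ g * f = f * ρ g := by rw [hc, smul_mul_assoc, one_mul, mul_smul_comm, mul_one]
    rw [hAd, h1, mul_assoc, ← map_mul, mul_inv_cancel, map_one, mul_one, Module.End.one_apply]
  haveI : Fintype (G ⧸ N) := Fintype.ofFinite _
  let A : G ⧸ N → Module.End K (Module.End K V) := fun u => Ad u.out
  have hA : ∀ g : G, A g = Ad g := fun g => by
    obtain ⟨m, hm⟩ := QuotientGroup.mk_out_eq_mul N g
    show Ad _ = _
    rw [hm, map_mul, hAdN m m.2, mul_one]
  have hAmul : ∀ u v, A (u * v) = A u * A v := fun u v => by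
    obtain ⟨g, rfl⟩ := QuotientGroup.mk_surjective u
    obtain ⟨h, rfl⟩ := QuotientGroup.mk_surjective v
    rw [← QuotientGroup.mk_mul, hA, hA, hA, map_mul]
  set Q' := Q.map (QuotientGroup.mk' N)
  set S := Finset.univ.filter fun u : G ⧸ N => u ∈ Q' ∧ u ≠ 1
  set x' : G ⧸ N := (x : G ⧸ N)
  let act : ℕ → G ⧸ N → G ⧸ N := fun i u => x' ^ i * u * (x' ^ i)⁻¹
  have hcop : ∀ a b, Nat.Coprime (p ^ a) (q ^ b) := fun a b =>
    Nat.Coprime.pow a b ((Nat.coprime_primes Fact.out Fact.out).mpr hpq)
  obtain ⟨a, ha⟩ := (IsPGroup.iff_card.mp hx)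
  rw [Nat.card_zpowers] at ha
  have hfree : ∀ u ∈ S, ∀ i : ℤ, (x ^ i : G) ≠ 1 → x' ^ i * u * (x' ^ i)⁻¹ ≠ u := by
    intro u hu i hi h
    obtain ⟨-, ⟨g, hg, rfl⟩, hu1⟩ := Finset.mem_filter.mp hu
    rw [QuotientGroup.mk'_apply, ← QuotientGroup.mk_zpow, ← QuotientGroup.mk_inv,
      ← QuotientGroup.mk_mul, ← QuotientGroup.mk_mul, eq_comm, QuotientGroup.eq] at h
    set y := x ^ i
    set z := g⁻¹ * (y * g * y⁻¹)
    have hz : ∀ h : G, z * h = h * z := fun h' => (Subgroup.mem_center_iff.mp h.2 h').symm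
    have hpow : ∀ k : ℕ, y ^ k * g * (y ^ k)⁻¹ = g * z ^ k := fun k => by
      induction k with
      | zero => simp
      | succ k ih =>
        calc y ^ (k + 1) * g * (y ^ (k + 1))⁻¹ = y * (y ^ k * g * (y ^ k)⁻¹) * y⁻¹ := by
              rw [pow_succ']; group
          _ = (y * g * y⁻¹) * (y * z ^ k * y⁻¹) := by rw [ih]; group
          _ = g * z * z ^ k := by
              congr 1
              · simp only [z]; group
              · rw [← ((Commute.pow_left (hz y) k)).eq]; group
          _ = g * z ^ (k + 1) := by rw [pow_succ', mul_assoc]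
    have h1 : y ^ (p ^ a) = 1 := by
      rw [← ha, ← zpow_natCast (x ^ i), ← zpow_mul, mul_comm, zpow_mul, zpow_natCast,
        pow_orderOf_eq_one, one_zpow]
    have h2 : z ^ (p ^ a) = 1 := by simpa [h1] using hpow (p ^ a)
    obtain ⟨b, hb⟩ := hQ ⟨z, h.1⟩
    have h3 : z = 1 := by
      have := pow_gcd_eq_one.mpr ⟨h2, congrArg Subtype.val hb⟩
      rwa [hcop a b, pow_one] at this
    have h4 : g ∈ Subgroup.centralizer ({y} : Set G) :=
      Subgroup.mem_centralizer_singleton_iff.mpr (by
        have h5 : y * g * y⁻¹ = g := by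
          have h6 : g * z = y * g * y⁻¹ := by simp only [z]; group
          rw [← h6, h3, mul_one]
        nth_rewrite 1 [← h5]
        group)
    rw [hC y (Subgroup.zpow_mem_zpowers x i) hi] at h4
    obtain ⟨w, hw, c, hc, hwc⟩ := Subgroup.mem_sup_of_normal_right.mp h4
    have h7 : g ^ (p ^ a) ∈ Subgroup.center G := by
      obtain ⟨j, rfl⟩ := hw
      rw [← hwc, Commute.mul_pow (Subgroup.mem_center_iff.mp hc (x ^ j)), ← ha, ← zpow_natCast (x ^ j),
        ← zpow_mul, mul_comm, zpow_mul, zpow_natCast, pow_orderOf_eq_one, one_zpow, one_mul]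
      exact pow_mem hc _
    obtain ⟨e, he⟩ := hQ ⟨g, hg⟩
    have h8 : g ∈ Subgroup.center G := by
      have hgo : (g : G ⧸ Subgroup.center G) = 1 := by
        have h9 : (g : G ⧸ Subgroup.center G) ^ (p ^ a) = 1 := by
          rw [← QuotientGroup.mk_pow, QuotientGroup.eq_one_iff]
          exact h7
        have h10 : (g : G ⧸ Subgroup.center G) ^ (q ^ e) = 1 := by
          rw [← QuotientGroup.mk_pow, show g ^ q ^ e = 1 from congrArg Subtype.val he,
            QuotientGroup.mk_one]
        have := pow_gcd_eq_one.mpr ⟨h9, h10⟩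
        rwa [hcop a e, pow_one] at this
      exact (QuotientGroup.eq_one_iff g).mp hgo
    exact hu1 ((QuotientGroup.eq_one_iff g).mpr ⟨hg, h8⟩)
  have hpos : 0 < orderOf x := orderOf_pos x
  let st : Setoid (G ⧸ N) :=
    { r := fun u v => ∃ i : ℤ, x' ^ i * u * (x' ^ i)⁻¹ = v
      iseqv :=
        { refl := fun u => ⟨0, by simp⟩
          symm := fun {u v} h => by
            obtain ⟨i, rfl⟩ := h
            exact ⟨-i, by group⟩
          trans := fun {u v w} h h' => by
            obtain ⟨i, rfl⟩ := h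
            obtain ⟨j, rfl⟩ := h'
            exact ⟨j + i, by group⟩ } }
  let rep : G ⧸ N → G ⧸ N := fun u => (Quotient.mk st u).out
  have hrep : ∀ u, ∃ i : ℕ, i < orderOf x ∧ act i (rep u) = u := fun u => by
    obtain ⟨j, hj⟩ := Quotient.exact (Quotient.out_eq (Quotient.mk st u))
    refine ⟨(j % (orderOf x : ℤ)).toNat, ?_, ?_⟩
    · have := Int.emod_lt_of_pos j (by exact_mod_cast hpos : (0 : ℤ) < orderOf x)
      omega
    · have h1 : x' ^ ((j % (orderOf x : ℤ)).toNat) = x' ^ j := by
        rw [← zpow_natCast x', Int.toNat_of_nonneg (Int.emod_nonneg j (by omega)),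
          ← QuotientGroup.mk_zpow, ← QuotientGroup.mk_zpow, zpow_mod_orderOf]
      show x' ^ _ * rep u * (x' ^ _)⁻¹ = u
      rw [h1]
      exact hj
  haveI : Q'.Normal := Subgroup.Normal.map inferInstance _ (QuotientGroup.mk'_surjective N)
  have hS : ∀ (w u : G ⧸ N), u ∈ S → w * u * w⁻¹ ∈ S := fun w u hu => by
    obtain ⟨-, hu, hu1⟩ := Finset.mem_filter.mp hu
    refine Finset.mem_filter.mpr
      ⟨Finset.mem_univ _, (‹Q'.Normal›.conj_mem u hu w), fun h => hu1 ?_⟩
    simpa using conj_eq_one_iff.mp h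
  have hrepS : ∀ u ∈ S, rep u ∈ S := fun u hu => by
    obtain ⟨i, -, hi⟩ := hrep u
    have := hS (x' ^ i)⁻¹ u hu
    rw [← hi] at this
    simpa [act, mul_assoc] using this
  set R := S.image rep
  have hRS : ∀ r ∈ R, r ∈ S := fun r hr => by
    obtain ⟨u, hu, rfl⟩ := Finset.mem_image.mp hr
    exact hrepS u hu
  have hsum : ∀ f : Module.End K V,
      ∑ i ∈ range (orderOf x), A (x' ^ i) (∑ r ∈ R, A r (A (x' ^ i)⁻¹ f)) = ∑ u ∈ S, A u f := by
    intro f
    simp only [map_sum]
    rw [← Finset.sum_product']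
    refine Finset.sum_bij (fun ir _ => act ir.1 ir.2) ?_ ?_ ?_ ?_
    · intro ir hir
      exact hS _ _ (hRS _ (Finset.mem_product.mp hir).2)
    · rintro ⟨i, r⟩ hir ⟨j, r'⟩ hjr h
      obtain ⟨hi, hr⟩ := Finset.mem_product.mp hir
      obtain ⟨hj, hr'⟩ := Finset.mem_product.mp hjr
      obtain ⟨u, hu, rfl⟩ := Finset.mem_image.mp hr
      obtain ⟨u', hu', rfl⟩ := Finset.mem_image.mp hr'
      simp only [act] at h
      have hkey : x' ^ ((i : ℤ) - j) * rep u * (x' ^ ((i : ℤ) - j))⁻¹ = rep u' := by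
        rw [sub_eq_neg_add, zpow_add, zpow_neg, zpow_natCast, zpow_natCast, mul_inv_rev, inv_inv,
          show (x' ^ j)⁻¹ * x' ^ i * rep u * ((x' ^ i)⁻¹ * x' ^ j) =
            (x' ^ j)⁻¹ * (x' ^ i * rep u * (x' ^ i)⁻¹) * x' ^ j by group, h]
        group
      have hr_eq : rep u = rep u' := by
        show (Quotient.mk st u).out = (Quotient.mk st u').out
        congr 1
        have e1 : Quotient.mk st (rep u) = Quotient.mk st (rep u') := Quotient.sound ⟨_, hkey⟩
        simpa only [rep, Quotient.out_eq] using e1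
      rw [← hr_eq] at hkey
      have hij : x ^ ((i : ℤ) - j) = 1 := by
        by_contra hne
        exact hfree _ (hrepS u hu) _ hne hkey
      have : x ^ i = x ^ j := by
        rwa [zpow_sub, mul_inv_eq_one, zpow_natCast, zpow_natCast] at hij
      simp only [Prod.mk.injEq]
      exact ⟨pow_injOn_Iio_orderOf (Finset.mem_range.mp hi) (Finset.mem_range.mp hj) this, hr_eq⟩
    · intro u hu
      obtain ⟨i, hi, hiu⟩ := hrep u
      exact ⟨(i, rep u), Finset.mem_product.mpr
        ⟨Finset.mem_range.mpr hi, Finset.mem_image_of_mem rep hu⟩, hiu⟩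
    · rintro ⟨i, r⟩ _
      simp only [act, hAmul, Module.End.mul_apply]
  have hxA : ∀ i : ℕ, A (x' ^ i)⁻¹ φ = φ := fun i => by
    have hc : ρ (x ^ i)⁻¹ * φ = φ * ρ (x ^ i)⁻¹ := by
      have h1 : ρ (x ^ i) * φ = φ * ρ (x ^ i) := by rw [map_pow]; exact (hφ.pow_left i).eq
      calc ρ (x ^ i)⁻¹ * φ = ρ (x ^ i)⁻¹ * (φ * ρ (x ^ i)) * ρ (x ^ i)⁻¹ := by
            simp only [mul_assoc, ← map_mul, mul_inv_cancel, map_one, mul_one]
        _ = ρ (x ^ i)⁻¹ * (ρ (x ^ i) * φ) * ρ (x ^ i)⁻¹ := by rw [h1]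
        _ = φ * ρ (x ^ i)⁻¹ := by
            simp only [← mul_assoc, ← map_mul, inv_mul_cancel, map_one, one_mul]
    rw [← QuotientGroup.mk_pow, ← QuotientGroup.mk_inv, hA, hAd, inv_inv, hc, mul_assoc, ← map_mul,
      inv_mul_cancel, map_one, mul_one]
  set E := ∑ u ∈ insert 1 S, A u φ
  have hins : insert 1 S = Finset.univ.filter fun u : G ⧸ N => u ∈ Q' := by
    ext u
    simp only [S, Finset.mem_insert, Finset.mem_filter, Finset.mem_univ, true_and]
    by_cases h : u = 1
    · simp [h, one_mem]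
    · simp [h]
  have hAone : A 1 = 1 := by rw [← QuotientGroup.mk_one, hA, map_one]
  obtain ⟨e, he⟩ := exists_scalar (fun h : Q => ρ h) hirr E fun h => by
    have h1 : Ad (h : G) E = E := by
      rw [← hA]
      simp only [E, map_sum, hins]
      refine Finset.sum_bij (fun u _ => (h : G ⧸ N) * u) ?_ ?_ ?_ ?_
      · intro u hu
        simp only [Finset.mem_filter, Finset.mem_univ, true_and] at hu ⊢
        exact mul_mem ⟨h, h.2, rfl⟩ hu
      · intro u _ v _ huv
        exact mul_left_cancel huv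
      · intro u hu
        simp only [Finset.mem_filter, Finset.mem_univ, true_and] at hu ⊢
        exact ⟨(h : G ⧸ N)⁻¹ * u, mul_mem (inv_mem ⟨h, h.2, rfl⟩) hu, mul_inv_cancel_left _ _⟩
      · intro u _
        rw [hAmul, Module.End.mul_apply]
    show ρ h * E = E * ρ h
    rw [hAd] at h1
    nth_rewrite 2 [← h1]
    rw [mul_assoc, ← map_mul, inv_mul_cancel, map_one, mul_one]
  set m := (insert 1 S).card
  have hm : (m : K) ≠ 0 := by
    rw [Ne, CharP.cast_eq_zero_iff K p]
    have hm' : m = Nat.card Q' := by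
      simp only [m, hins]
      rw [Nat.card_eq_fintype_card]
      exact (Fintype.card_subtype _).symm
    rw [hm']
    obtain ⟨b, hb⟩ := (IsPGroup.iff_card.mp (hQ.map (QuotientGroup.mk' N)))
    rw [hb]
    intro hdvd
    exact hpq ((Nat.prime_dvd_prime_iff_eq Fact.out Fact.out).mp
      ((Fact.out : p.Prime).dvd_of_dvd_pow hdvd))
  set l := (m : K)⁻¹ * e
  have hA1 : ∀ u, A u (l • 1) = l • 1 := fun u => by
    show Ad u.out (l • 1) = _
    rw [hAd, mul_smul_comm, mul_one, smul_mul_assoc, ← map_mul, mul_inv_cancel, map_one]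
  refine ⟨l, -(∑ r ∈ R, A r (φ - l • 1)), ?_⟩
  have hT : ∀ i f, ρ (x ^ i) * f * ρ (x ^ i)⁻¹ = A (x' ^ i) f := fun i f => by
    rw [← QuotientGroup.mk_pow, hA, hAd]
  have h1 : ∑ i ∈ range (orderOf x), A (x' ^ i) (∑ r ∈ R, A r (φ - l • 1)) =
      ∑ u ∈ S, A u (φ - l • 1) := by
    rw [← hsum (φ - l • 1)]
    refine Finset.sum_congr rfl fun i _ => ?_
    congr 1
    refine Finset.sum_congr rfl fun r _ => ?_
    simp only [map_sub, hxA, hA1]
  have h2 : ∑ u ∈ insert 1 S, A u (φ - l • 1) = 0 := by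
    simp only [map_sub, Finset.sum_sub_distrib, hA1, Finset.sum_const]
    show E - m • l • (1 : Module.End K V) = 0
    rw [he, ← Nat.cast_smul_eq_nsmul K, smul_smul, mul_inv_cancel_left₀ hm, sub_self]
  rw [Finset.sum_insert (by simp [S]), hAone, Module.End.one_apply] at h2
  simp only [hT, map_neg, Finset.sum_neg_distrib, h1, eq_neg_of_add_eq_zero_right h2, neg_neg]
  abel

/-- The two polynomial identities for a trace over a cyclic `p`-group in characteristic `p`. -/
theorem trace_identities {p a : ℕ} [Fact p.Prime] [CharP K p] :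
    (∑ i ∈ range (p ^ a), (Polynomial.X : Polynomial K) ^ i) = (Polynomial.X - 1) ^ (p ^ a - 1) ∧
      (∑ i ∈ range (p ^ a), Polynomial.C (i : K) * Polynomial.X ^ (i - 1)) =
        Polynomial.C ((p ^ a - 1 : ℕ) : K) * (Polynomial.X - 1) ^ (p ^ a - 1 - 1) := by
  have h1 : (∑ i ∈ range (p ^ a), (Polynomial.X : Polynomial K) ^ i) =
      (Polynomial.X - 1) ^ (p ^ a - 1) := by
    refine mul_right_cancel₀ (Polynomial.X_sub_C_ne_zero (1 : K)) ?_
    rw [map_one, geom_sum_mul, ← pow_succ, Nat.sub_add_cancel (Nat.one_le_pow _ _ (Fact.out : p.Prime).pos),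
      sub_pow_char_pow, one_pow]
  refine ⟨h1, ?_⟩
  have h2 := congrArg (fun f => Polynomial.derivative f) h1
  simpa [Polynomial.derivative_sum, Polynomial.derivative_X_pow, Polynomial.derivative_pow] using h2

/-- The degree of the minimal polynomial of the `p`-element in the critical case. -/
theorem critical [IsAlgClosed K] [FiniteDimensional K V] [Nontrivial V] {G : Type*} [Group G]
    [Finite G] {p q : ℕ} [Fact p.Prime] [Fact q.Prime] [CharP K p] (hpq : p ≠ q)
    (ρ : Representation K G V) (hfaith : Function.Injective ρ) (Q : Subgroup G) [Q.Normal]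
    (hQ : IsPGroup q Q)
    (hirr : ∀ W : Submodule K V, (∀ g : Q, ∀ w ∈ W, ρ g w ∈ W) → W = ⊥ ∨ W = ⊤)
    (x : G) (hx : IsPGroup p (Subgroup.zpowers x))
    (hC : ∀ y ∈ Subgroup.zpowers x, y ≠ 1 →
      Subgroup.centralizer ({y} : Set G) = Subgroup.zpowers x ⊔ Subgroup.center G)
    (s : ℕ) (hs : (ρ x - 1) ^ s = 0) (hmin : ∀ k < s, (ρ x - 1) ^ k ≠ 0) :
    orderOf x - 1 ≤ s ∧ s ≤ orderOf x ∧
      (s = orderOf x - 1 → (∃ b : ℕ, orderOf x - 1 = q ^ b) ∧ ¬ IsMulCommutative Q) := by
  classical
  obtain ⟨a, ha⟩ := IsPGroup.iff_card.mp hx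
  rw [Nat.card_zpowers] at ha
  set n := orderOf x
  set N := ρ x - 1 with hN
  have hn0 : N ^ n = 0 := by
    haveI : CharP (Module.End K V) p :=
      charP_of_injective_algebraMap (algebraMap K (Module.End K V)).injective p
    rw [hN, ha, sub_pow_char_pow_of_commute p a (Commute.one_right _), one_pow, ← map_pow, ← ha,
      pow_orderOf_eq_one, map_one, sub_self]
  have hsn : s ≤ n := not_lt.mp fun h => hmin n h hn0
  have hs0 : 0 < s := Nat.pos_of_ne_zero fun h => by
    rw [h, pow_zero] at hs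
    exact one_ne_zero hs
  have hN0 : 2 ≤ n → N ≠ 0 := fun h2 h => by
    have : x = 1 := hfaith (by rw [map_one]; exact sub_eq_zero.mp h)
    have : n = 1 := by simp only [n, this, orderOf_one]
    omega
  have hnil : ∀ (k : ℕ) (f : Module.End K V), N ^ k * f = 0 → ∀ j, k ≤ j → N ^ j * f = 0 :=
    fun k f h j hj => by rw [← Nat.sub_add_cancel hj, pow_add, mul_assoc, h, mul_zero]
  obtain ⟨hI1, hI2⟩ := trace_identities (K := K) (p := p) (a := a)
  rw [← ha] at hI1 hI2
  have hS1 : ∑ i ∈ range n, ρ (x ^ i) = N ^ (n - 1) := by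
    simpa [hN] using congrArg (Polynomial.aeval (ρ x)) hI1
  have hS2 : ∑ i ∈ range n, (i : K) • ρ (x ^ i) =
      ((n - 1 : ℕ) : K) • (ρ x * N ^ (n - 1 - 1)) := by
    have := congrArg (fun f => Polynomial.aeval (ρ x) (Polynomial.X * f)) hI2
    simp only [map_mul, Polynomial.aeval_X, map_sum, Finset.mul_sum, Polynomial.aeval_C, map_pow,
      map_sub, map_one] at this
    simp only [Algebra.algebraMap_eq_smul_one, smul_mul_assoc, one_mul, mul_smul_comm, hN] at this ⊢
    rw [← this]
    refine Finset.sum_congr rfl fun i _ => ?_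
    rcases Nat.eq_zero_or_pos i with h | h
    · simp [h]
    · rw [← map_pow, ← map_mul, ← pow_succ', Nat.sub_add_cancel h]
  have hfix : ∀ (i : ℕ) (v : V), N (N v) = 0 → ρ (x ^ i)⁻¹ v = v - (i : K) • N v := fun i v hv => by
    have h1 : ∀ i : ℕ, ∀ w : V, N (N w) = 0 → ρ (x ^ i) w = w + (i : K) • N w := by
      intro i
      induction i with
      | zero => simp
      | succ i ih =>
        intro w hw
        have hx1 : ∀ u, ρ x u = u + N u := fun u => by simp [hN]
        rw [pow_succ', map_mul, Module.End.mul_apply, ih w hw, map_add, map_smul, hx1, hx1, hw,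
          Nat.cast_succ, add_smul, one_smul]
        simp only [add_zero]
        abel
    apply (ρ.apply_bijective (x ^ i)).1
    rw [ρ.self_inv_apply, map_sub, map_smul, h1 i v hv, h1 i (N v) (by rw [hv, map_zero]), hv,
      smul_zero, add_zero, add_sub_cancel_right]
  have hker : ∀ (φ : Module.End K V), Commute (ρ x) φ → ∃ l : K, ∀ v, N (N v) = 0 →
      (s + 2 ≤ n → φ v = l • v) ∧ (s + 1 ≤ n → N v = 0 → φ v = l • v) := by
    intro φ hφ
    obtain ⟨l, ψ, hψ⟩ := exists_scalar_add_trace hpq ρ Q hQ hirr x hx hC φ hφ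
    refine ⟨l, fun v hv => ?_⟩
    have hexp : φ v = l • v + (∑ i ∈ range n, ρ (x ^ i)) (ψ v) -
        (∑ i ∈ range n, (i : K) • ρ (x ^ i)) (ψ (N v)) := by
      rw [hψ, LinearMap.add_apply, LinearMap.smul_apply, Module.End.one_apply, LinearMap.sum_apply,
        LinearMap.sum_apply, LinearMap.sum_apply, add_sub_assoc, ← Finset.sum_sub_distrib]
      congr 1
      refine Finset.sum_congr rfl fun i _ => ?_
      simp only [Module.End.mul_apply, hfix i v hv, map_sub, map_smul, LinearMap.smul_apply]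
    have hz : ∀ j, s ≤ j → N ^ j = 0 := fun j hj => by
      simpa using hnil s 1 (by rw [hs, zero_mul]) j hj
    refine ⟨fun h => ?_, fun h hv0 => ?_⟩
    · rw [hexp, hS1, hS2, hz _ (by omega), hz _ (by omega)]
      simp
    · rw [hexp, hS1, hz _ (by omega), hv0]
      simp
  obtain ⟨v₀, hv₀⟩ : ∃ v, (N ^ (s - 1)) v ≠ 0 := by
    by_contra h
    push Not at h
    exact hmin (s - 1) (by omega) (LinearMap.ext h)
  set u₀ := (N ^ (s - 1)) v₀
  have hu₀ : N u₀ = 0 := by
    rw [← Module.End.mul_apply, ← pow_succ', Nat.sub_add_cancel hs0, hs, LinearMap.zero_apply]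
  have hcomN : ∀ φ : Module.End K V, Commute N φ → Commute (ρ x) φ := fun φ h => by
    have := h.add_left (Commute.one_left φ)
    rwa [hN, sub_add_cancel] at this
  have hlow : n - 1 ≤ s := by
    by_contra hlt
    obtain ⟨l, hl⟩ := hker N ((Commute.refl (ρ x)).sub_right (Commute.one_right _))
    have hl0 : l = 0 := by
      have h := (hl u₀ (by rw [hu₀, map_zero])).1 (by omega)
      rw [hu₀, eq_comm, smul_eq_zero] at h
      exact h.resolve_right hv₀
    have hdown : ∀ k v, (N ^ k) v = 0 → N v = 0 := by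
      intro k
      induction k with
      | zero => intro v h; rw [pow_zero, Module.End.one_apply] at h; rw [h, map_zero]
      | succ k ih =>
        intro v h
        rw [pow_succ, Module.End.mul_apply] at h
        have h2 := ih (N v) h
        rw [(hl v h2).1 (by omega), hl0, zero_smul]
    exact hN0 (by omega) (LinearMap.ext fun v => hdown s v (by rw [hs]; rfl))
  refine ⟨hlow, hsn, fun hseq => ?_⟩
  have hn2 : 2 ≤ n := by omega
  -- the fixed space is a line
  obtain ⟨f, hf⟩ : ∃ f : Module.Dual K V, f u₀ = 1 := by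
    obtain ⟨g, hg⟩ := not_forall.mp (mt (Module.forall_dual_apply_eq_zero_iff K u₀).mp hv₀)
    exact ⟨(g u₀)⁻¹ • g, by simp [hg]⟩
  let Φ : Module.End K V :=
    ∑ i ∈ range s, ((f : V →ₗ[K] K).comp (N ^ (s - 1 - i))).smulRight ((N ^ i) v₀)
  have hΦ : ∀ v, Φ v = ∑ i ∈ range s, f ((N ^ (s - 1 - i)) v) • (N ^ i) v₀ := fun v => by
    simp [Φ, LinearMap.sum_apply]
  have hcom : Commute N Φ := by
    show N * Φ = Φ * N
    ext v
    simp only [Module.End.mul_apply, hΦ, map_sum, map_smul]
    obtain ⟨t, rfl⟩ : ∃ t, s = t + 1 := ⟨s - 1, by omega⟩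
    rw [Finset.sum_range_succ, Finset.sum_range_succ' (fun i => f ((N ^ _) (N v)) • _)]
    have e1 : N ((N ^ t) v₀) = 0 := by
      rw [← Module.End.mul_apply, ← pow_succ', hs, LinearMap.zero_apply]
    have e2 : (N ^ (t + 1 - 1 - 0)) (N v) = 0 := by
      rw [← Module.End.mul_apply, ← pow_succ, show t + 1 - 1 - 0 + 1 = t + 1 by omega, hs,
        LinearMap.zero_apply]
    rw [e1, e2, smul_zero, map_zero, zero_smul, add_zero, add_zero]
    refine Finset.sum_congr rfl fun i hi => ?_
    have := Finset.mem_range.mp hi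
    rw [← Module.End.mul_apply (f := N), ← pow_succ', ← Module.End.mul_apply (g := N), ← pow_succ,
      show t + 1 - 1 - (i + 1) + 1 = t + 1 - 1 - i by omega]
  obtain ⟨l, hl⟩ := hker Φ (hcomN Φ hcom)
  have hline : ∀ v, N v = 0 → v ∈ (K ∙ u₀) := by
    have hval : ∀ v, N v = 0 → Φ v = f v • u₀ := fun v hv => by
      rw [hΦ, Finset.sum_eq_single (s - 1)]
      · simp [u₀]
      · intro i hi hne
        have := Finset.mem_range.mp hi
        rw [show s - 1 - i = (s - 1 - i - 1) + 1 by omega, pow_succ, Module.End.mul_apply, hv,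
          map_zero, map_zero, zero_smul]
      · intro h
        exact absurd (Finset.mem_range.mpr (by omega)) h
    have hl1 : l = 1 := by
      have h := (hval u₀ hu₀).symm.trans ((hl u₀ (by rw [hu₀, map_zero])).2 (by omega) hu₀)
      rw [hf] at h
      exact (smul_left_injective K hv₀ h).symm
    intro v hv
    have h := (hval v hv).symm.trans ((hl v (by rw [hv, map_zero])).2 (by omega) hv)
    rw [hl1, one_smul] at h
    exact h ▸ Submodule.smul_mem _ _ (Submodule.mem_span_singleton_self u₀)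
  have hk1 : finrank K (LinearMap.ker N) ≤ 1 :=
    (Submodule.finrank_mono fun v hv => hline v hv).trans (finrank_span_singleton hv₀).le
  have hkk : ∀ k, finrank K (LinearMap.ker (N ^ k)) ≤ k := by
    intro k
    induction k with
    | zero => simp [Module.End.one_eq_id]
    | succ k ih =>
      let g : LinearMap.ker (N ^ (k + 1)) →ₗ[K] LinearMap.ker (N ^ k) :=
        N.restrict fun v hv => by
          rw [LinearMap.mem_ker] at hv ⊢
          rwa [← Module.End.mul_apply, ← pow_succ]
      have h1 := g.finrank_range_add_finrank_ker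
      have h2 : finrank K (LinearMap.range g) ≤ k := (Submodule.finrank_le _).trans ih
      have h3 : finrank K (LinearMap.ker g) ≤ finrank K (LinearMap.ker N) := by
        refine LinearMap.finrank_le_finrank_of_injective
          (f := ((LinearMap.ker (N ^ (k + 1))).subtype ∘ₗ (LinearMap.ker g).subtype).codRestrict
            (LinearMap.ker N) fun v => congrArg Subtype.val v.2) fun v w h => ?_
        exact Subtype.ext (Subtype.ext (congrArg Subtype.val h :))
      omega
  set d := finrank K V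
  have hds : d ≤ s := by
    have := hkk s
    rwa [hs, LinearMap.ker_zero, finrank_top] at this
  have hsd : s ≤ d := not_lt.mp fun h => hmin d h (by
    have := LinearMap.aeval_self_charpoly N
    rwa [IsNilpotent.charpoly_eq_X_pow_finrank ⟨s, hs⟩, map_pow, Polynomial.aeval_X] at this)
  obtain ⟨b, hb⟩ := finrank_eq_prime_pow (K := K) (q := q) (Nat.card Q) Q le_rfl hQ V
    (ρ.comp Q.subtype) hirr
  refine ⟨⟨b, by rw [← hb]; omega⟩, fun hcomm => ?_⟩
  obtain ⟨v, hv⟩ := exists_ne (0 : V)
  have h1 : (K ∙ v) = ⊤ := (hirr _ fun g w hw => by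
    obtain ⟨c, hc⟩ := exists_scalar (fun h : Q => ρ h) hirr (ρ g) fun h => by
      show ρ h * ρ g = ρ g * ρ h
      rw [← map_mul, ← map_mul]
      exact congrArg ρ (congrArg Subtype.val (hcomm.is_comm.comm h g) :)
    rw [hc]
    simpa using Submodule.smul_mem _ c hw).resolve_left (by simpa using hv)
  have hd1 : d = 1 := by
    rw [show d = finrank K (⊤ : Submodule K V) from (finrank_top K V).symm, ← h1]
    exact finrank_span_singleton hv
  have hs1 : s = 1 := by omega
  rw [hs1, pow_one] at hs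
  exact hN0 hn2 hs

end Cfsg.Agent.H20.Critical
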