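import Cfsg.Agent.H20.CyclicSymplectic
import Cfsg.Agent.H20.Abelian
import Cfsg.Agent.H20.FixedPoints

/-! A cyclic group acting on a `p`-group of class two with small derived subgroup without
fixed points outside the centre has order dividing `p ^ k ± 1`. -/

set_option autoImplicit false
open scoped Pointwise commutatorElement

namespace Cfsg.Agent.H20.CycExtra

variable {G : Type*} [Group G] [Finite G] {p : ℕ}

/-- The standing hypotheses. -/
structure Ctx (p : ℕ) (P Z H : Subgroup G) : Prop where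
  le : Z ≤ P
  card : Nat.card Z = p
  central : Z ≤ Subgroup.centralizer (P : Set G)
  comm : ⁅P, P⁆ ≤ Z
  pow : ∀ x ∈ P, x ^ p ∈ Z
  isP : IsPGroup p P
  norm : H ≤ Subgroup.normalizer (P : Set G)
  cop : (Nat.card H).Coprime (Nat.card P)
  fix : ∀ x ∈ H, x ≠ 1 → P ⊓ Subgroup.centralizer {x} ≤ Z
  fixZ : H ≤ Subgroup.centralizer (Z : Set G)

variable {P Z H : Subgroup G}

theorem Ctx.commutator_mem (hc : Ctx p P Z H) {a b : G} (ha : a ∈ P) (hb : b ∈ P) :
    ⁅a, b⁆ ∈ Z := hc.comm (Subgroup.commutator_mem_commutator ha hb)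

theorem Ctx.comm_central (hc : Ctx p P Z H) {z a : G} (hz : z ∈ Z) (ha : a ∈ P) :
    a * z = z * a := Subgroup.mem_centralizer_iff.mp (hc.central hz) a ha

theorem Ctx.mul_left (hc : Ctx p P Z H) {a b c : G} (ha : a ∈ P) (hb : b ∈ P) (hcP : c ∈ P) :
    ⁅a * b, c⁆ = ⁅a, c⁆ * ⁅b, c⁆ := by
  have h := hc.comm_central (hc.commutator_mem hb hcP) ha
  have e : ⁅a * b, c⁆ = a * ⁅b, c⁆ * a⁻¹ * ⁅a, c⁆ := by group
  rw [e, h, mul_inv_cancel_right,
    hc.comm_central (hc.commutator_mem ha hcP) (hc.le (hc.commutator_mem hb hcP))]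

theorem Ctx.mul_right (hc : Ctx p P Z H) {a b c : G} (ha : a ∈ P) (hb : b ∈ P) (hcP : c ∈ P) :
    ⁅a, b * c⁆ = ⁅a, b⁆ * ⁅a, c⁆ := by
  have h := hc.comm_central (hc.commutator_mem ha hcP) hb
  have e : ⁅a, b * c⁆ = ⁅a, b⁆ * (b * ⁅a, c⁆ * b⁻¹) := by group
  rw [e, h, mul_inv_cancel_right]

theorem Ctx.relIndex_centralizer_dvd (hc : Ctx p P Z H) {A : Subgroup G} (hA : A ≤ P) {b : G}
    (hb : b ∈ P) : (Subgroup.centralizer ({b} : Set G)).relIndex A ∣ p := by
  let f : A →* Z :=
    { toFun := fun a => ⟨⁅(a : G), b⁆, hc.commutator_mem (hA a.2) hb⟩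
      map_one' := Subtype.ext (commutatorElement_one_left b)
      map_mul' := fun a a' => Subtype.ext (hc.mul_left (hA a.2) (hA a'.2) hb) }
  have hker : f.ker = (Subgroup.centralizer ({b} : Set G)).subgroupOf A := by
    ext a
    rw [MonoidHom.mem_ker, Subgroup.mem_subgroupOf, Subgroup.mem_centralizer_singleton_iff,
      ← commutatorElement_eq_one_iff_mul_comm]
    exact ⟨fun h => congrArg Subtype.val h, fun h => Subtype.ext h⟩
  rw [Subgroup.relIndex, ← hker, Subgroup.index_ker]
  exact (Subgroup.card_subgroup_dvd_card _).trans hc.card.dvd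

theorem Ctx.pairing_le [Fact p.Prime] (hc : Ctx p P Z H) {A B : Subgroup G} (hA : A ≤ P)
    (hB : B ≤ P) :
    (Subgroup.centralizer (B : Set G)).relIndex A ≤
      (Subgroup.centralizer (A : Set G)).relIndex B := by
  set B0 := B ⊓ Subgroup.centralizer (A : Set G) with hB0
  let S : Set (Subgroup G) := {M | B0 ≤ M ∧ M ≤ B ∧
    (Subgroup.centralizer (M : Set G)).relIndex A ≤ B0.relIndex M}
  have hne : S.Nonempty := by
    refine ⟨B0, le_rfl, inf_le_left, ?_⟩
    rw [Subgroup.relIndex_self, Subgroup.relIndex_eq_one.mpr]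
    exact Subgroup.le_centralizer_iff.mpr inf_le_right
  obtain ⟨M, ⟨h0M, hMB, hM⟩, hmax⟩ := (Set.toFinite S).exists_maximal hne
  suffices hMeq : M = B by
    subst hMeq
    calc _ ≤ B0.relIndex M := hM
      _ = _ := Subgroup.inf_relIndex_left _ _
  by_contra hne'
  obtain ⟨b, hbB, hbM⟩ := SetLike.exists_of_lt (lt_of_le_of_ne hMB hne')
  set M' := M ⊔ Subgroup.zpowers b with hM'
  have hM'B : M' ≤ B := sup_le hMB (Subgroup.zpowers_le.mpr hbB)
  have hMM' : M ≤ M' := le_sup_left
  have hp : p ≤ M.relIndex M' := by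
    have hd : M.relIndex M' ∣ Nat.card P := by
      exact dvd_trans (Subgroup.relIndex_dvd_card _ _) (Subgroup.card_dvd_of_le (hM'B.trans hB))
    obtain ⟨m, hm⟩ := hc.isP.exists_card_eq
    obtain ⟨j, -, hj⟩ := (Nat.dvd_prime_pow (Fact.out : p.Prime)).mp (hm ▸ hd)
    rcases Nat.eq_zero_or_pos j with rfl | hj'
    · rw [pow_zero, Subgroup.relIndex_eq_one] at hj
      exact absurd (hj (le_sup_right (a := M) (Subgroup.mem_zpowers b))) hbM
    · rw [hj]; exact Nat.le_self_pow hj'.ne' p
  refine hbM (hmax ⟨h0M.trans hMM', hM'B, ?_⟩ hMM'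
    (le_sup_right (a := M) (Subgroup.mem_zpowers b)))
  set X := A ⊓ Subgroup.centralizer (M : Set G) with hX
  have hle : X ⊓ Subgroup.centralizer ({b} : Set G) ≤ Subgroup.centralizer (M' : Set G) := by
    rintro c ⟨⟨-, hcM⟩, hcb⟩
    have hsub : M' ≤ Subgroup.centralizer ({c} : Set G) := by
      refine sup_le (fun m hm => ?_) (Subgroup.zpowers_le.mpr ?_)
      · rw [Subgroup.mem_centralizer_singleton_iff]
        exact Subgroup.mem_centralizer_iff.mp hcM m hm
      · rw [Subgroup.mem_centralizer_singleton_iff]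
        exact (Subgroup.mem_centralizer_singleton_iff.mp hcb).symm
    rw [Subgroup.mem_centralizer_iff]
    intro m hm
    exact Subgroup.mem_centralizer_singleton_iff.mp (hsub hm)
  calc (Subgroup.centralizer (M' : Set G)).relIndex A
      ≤ (X ⊓ Subgroup.centralizer ({b} : Set G)).relIndex A :=
        Subgroup.relIndex_le_of_le_left hle Subgroup.FiniteIndex.index_ne_zero
    _ = (X ⊓ Subgroup.centralizer ({b} : Set G)).relIndex X * X.relIndex A :=
        (Subgroup.relIndex_mul_relIndex _ _ _ inf_le_left inf_le_left).symm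
    _ = (Subgroup.centralizer ({b} : Set G)).relIndex X *
        (Subgroup.centralizer (M : Set G)).relIndex A := by
        rw [Subgroup.inf_relIndex_left, hX, Subgroup.inf_relIndex_left]
    _ ≤ p * B0.relIndex M := Nat.mul_le_mul (Nat.le_of_dvd (Fact.out : p.Prime).pos
        (hc.relIndex_centralizer_dvd (inf_le_left.trans hA) (hB hbB))) hM
    _ ≤ B0.relIndex M * M.relIndex M' := by
        rw [mul_comm]; exact Nat.mul_le_mul_left _ hp
    _ = B0.relIndex M' := Subgroup.relIndex_mul_relIndex _ _ _ h0M hMM'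

theorem Ctx.pairing [Fact p.Prime] (hc : Ctx p P Z H) {A B : Subgroup G} (hA : A ≤ P)
    (hB : B ≤ P) :
    (Subgroup.centralizer (B : Set G)).relIndex A =
      (Subgroup.centralizer (A : Set G)).relIndex B :=
  le_antisymm (hc.pairing_le hA hB) (hc.pairing_le hB hA)

/-- Fixed point free action on a section. -/
theorem Ctx.fixed_mem (hc : Ctx p P Z H) {U R : Subgroup G} (hU : U ≤ P) (hR : R ≤ U)
    (hZR : Z ≤ R) (hHR : H ≤ Subgroup.normalizer (R : Set G)) {y u : G} (hy : y ∈ H) (hy1 : y ≠ 1)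
    (hu : u ∈ U) (h : u⁻¹ * (y * u * y⁻¹) ∈ R) : u ∈ R := by
  have hyH : Subgroup.zpowers y ≤ H := Subgroup.zpowers_le.mpr hy
  have hy' : Subgroup.zpowers y ≤ Subgroup.normalizer (R : Set G) := hyH.trans hHR
  have hall : ∀ a ∈ Subgroup.zpowers y, u⁻¹ * (a * u * a⁻¹) ∈ R := by
    let S : Subgroup G :=
      { carrier := {a | a ∈ Subgroup.normalizer (R : Set G) ∧ u⁻¹ * (a * u * a⁻¹) ∈ R}
        one_mem' := ⟨one_mem _, by simp⟩
        mul_mem' := by
          rintro a b ⟨ha, ha'⟩ ⟨hb, hb'⟩
          refine ⟨mul_mem ha hb, ?_⟩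
          have e : u⁻¹ * (a * b * u * (a * b)⁻¹) =
              (u⁻¹ * (a * u * a⁻¹)) * (a * (u⁻¹ * (b * u * b⁻¹)) * a⁻¹) := by group
          rw [e]
          exact mul_mem ha' ((Subgroup.mem_normalizer_iff.mp ha _).mp hb')
        inv_mem' := by
          rintro a ⟨ha, ha'⟩
          refine ⟨inv_mem ha, ?_⟩
          have e : u⁻¹ * (a⁻¹ * u * a⁻¹⁻¹) = a⁻¹ * (u⁻¹ * (a * u * a⁻¹))⁻¹ * a := by group
          rw [e]
          exact (Subgroup.mem_normalizer_iff''.mp ha _).mp (inv_mem ha') }
    have : Subgroup.zpowers y ≤ S := Subgroup.zpowers_le.mpr ⟨hHR hy, h⟩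
    exact fun a ha => (this ha).2
  obtain ⟨c, ⟨hcU, hcc⟩, hcR⟩ := exists_fixed_mem_coset
    (coprime_card_mono_left (coprime_card_mono_right hc.cop hU) hyH)
    (Or.inl (isSolvable_of_isMulCommutative _)) hR hy' hu hall
  have hcZ : c ∈ R := hZR (hc.fix y hy hy1 ⟨hU hcU, by
    refine Subgroup.mem_centralizer_singleton_iff.mpr ?_
    exact (Subgroup.mem_centralizer_iff.mp hcc y (Subgroup.mem_zpowers y)).symm⟩)
  simpa using mul_mem hcZ (inv_mem hcR)

theorem Ctx.sub_normal (hc : Ctx p P Z H) {M R : Subgroup G} (hM : M ≤ P) (hRM : R ≤ M)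
    (hZR : Z ≤ R) : (R.subgroupOf M).Normal := by
  constructor
  intro r hr m
  rw [Subgroup.mem_subgroupOf] at hr ⊢
  simp only [Subgroup.coe_mul, Subgroup.coe_inv]
  have e : (m : G) * (r : G) * (m : G)⁻¹ = ⁅(m : G), (r : G)⁆ * r := by group
  rw [e]
  exact mul_mem (hZR (hc.commutator_mem (hM m.2) (hM (hRM hr)))) hr

theorem Ctx.card_dvd_sub_one (hc : Ctx p P Z H) {U R : Subgroup G} (hU : U ≤ P) (hRU : R ≤ U)
    (hZR : Z ≤ R) (hHU : H ≤ Subgroup.normalizer (U : Set G))
    (hHR : H ≤ Subgroup.normalizer (R : Set G)) : Nat.card H ∣ R.relIndex U - 1 := by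
  classical
  haveI := hc.sub_normal hU hRU hZR
  set N := R.subgroupOf U
  let act : H →* MulAut (U ⧸ N) :=
    { toFun := fun y => QuotientGroup.congr N N (conjAut hHU y) (by
        ext u
        rw [← MulEquiv.toMonoidHom_eq_coe, Subgroup.mem_map_equiv, Subgroup.mem_subgroupOf,
          Subgroup.mem_subgroupOf,
          ← MulAut.inv_def, ← map_inv, coe_conjAut]
        simp only [Subgroup.coe_inv, inv_inv]
        exact ((Subgroup.mem_normalizer_iff''.mp (hHR y.2)) _).symm)
      map_one' := by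
        ext v
        induction v using QuotientGroup.induction_on with
        | _ u => simp
      map_mul' := fun y z => by
        ext v
        induction v using QuotientGroup.induction_on with
        | _ u => simp }
  let S := {v : U ⧸ N // v ≠ 1}
  letI : MulAction H S :=
    { smul := fun y v => ⟨act y v.1, fun h => v.2 (by simpa using h)⟩
      one_smul := fun v => Subtype.ext (show act 1 v.1 = v.1 by simp)
      mul_smul := fun y z v => Subtype.ext (show act (y * z) v.1 = act y (act z v.1) by simp) }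
  have hfree : ∀ v : S, MulAction.stabilizer H v = ⊥ := by
    rintro ⟨v, hv⟩
    rw [Subgroup.eq_bot_iff_forall]
    intro y hy
    by_contra hy1
    induction v using QuotientGroup.induction_on with
    | _ u =>
      have h1 : act y (u : U ⧸ N) = u := congrArg Subtype.val hy
      apply hv
      rw [QuotientGroup.eq_one_iff, Subgroup.mem_subgroupOf]
      refine hc.fixed_mem hU hRU hZR hHR y.2 (fun h => hy1 (Subtype.ext h)) u.2 ?_
      have h2 : ((conjAut hHU y u : U) : U ⧸ N) = u := h1
      have h3 := (QuotientGroup.eq.mp h2.symm)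
      rw [Subgroup.mem_subgroupOf] at h3
      simpa [coe_conjAut] using h3
  have hcard : Nat.card S = R.relIndex U - 1 := by
    haveI : Fintype (U ⧸ N) := Fintype.ofFinite _
    rw [Nat.card_eq_fintype_card, Fintype.card_subtype_compl, Fintype.card_subtype_eq,
      ← Nat.card_eq_fintype_card]
    rfl
  rw [← hcard, Nat.card_congr (MulAction.selfEquivOrbitsQuotientProd hfree), Nat.card_prod]
  exact Dvd.intro_left _ rfl

theorem Ctx.irreducible [Fact p.Prime] (hc : Ctx p P Z H) (hcyc : IsCyclic H) {M R : Subgroup G}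
    (hM : M ≤ P) (hR : R = M ⊓ Subgroup.centralizer (M : Set G)) (hZM : Z ≤ M) (hlt : R < M)
    (hHM : H ≤ Subgroup.normalizer (M : Set G))
    (hmin : ∀ U : Subgroup G, R < U → U ≤ M → H ≤ Subgroup.normalizer (U : Set G) → U = M) :
    ∃ k, R.relIndex M = p ^ (2 * k) ∧ Nat.card H ∣ p ^ k + 1 := by
  classical
  have hRM : R ≤ M := hlt.le
  have hZR : Z ≤ R := hR ▸ le_inf hZM
    (hc.central.trans (Subgroup.centralizer_le hM))
  have hHR : H ≤ Subgroup.normalizer (R : Set G) :=
    hR ▸ le_normalizer_inf hHM (le_normalizer_centralizer hHM)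
  haveI := hc.sub_normal hM hRM hZR
  set N := R.subgroupOf M
  letI : CommGroup (M ⧸ N) :=
    { (inferInstance : Group (M ⧸ N)) with
      mul_comm := fun a b => by
        induction a using QuotientGroup.induction_on with
        | _ a =>
          induction b using QuotientGroup.induction_on with
          | _ b =>
            rw [← QuotientGroup.mk_mul, ← QuotientGroup.mk_mul, QuotientGroup.eq,
              Subgroup.mem_subgroupOf]
            have e : (((a * b)⁻¹ * (b * a) : M) : G) = ⁅(b : G)⁻¹, (a : G)⁻¹⁆ := by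
              simp [commutatorElement_def, mul_assoc]
            rw [e]
            exact hZR (hc.commutator_mem (inv_mem (hM b.2)) (inv_mem (hM a.2))) }
  letI : CommGroup Z :=
    { (inferInstance : Group Z) with
      mul_comm := fun a b => Subtype.ext (hc.comm_central b.2 (hc.le a.2)) }
  -- the commutator pairing
  have hkill : ∀ m r : G, m ∈ M → r ∈ R → ⁅m, r⁆ = 1 := fun m r hm hr => by
    rw [commutatorElement_eq_one_iff_mul_comm]
    rw [hR] at hr
    exact Subgroup.mem_centralizer_iff.mp hr.2 m hm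
  let inner : M → (M ⧸ N →* Z) := fun m => QuotientGroup.lift N
    { toFun := fun m' => ⟨⁅(m : G), (m' : G)⁆, hc.commutator_mem (hM m.2) (hM m'.2)⟩
      map_one' := Subtype.ext (commutatorElement_one_right _)
      map_mul' := fun a b => Subtype.ext (hc.mul_right (hM m.2) (hM a.2) (hM b.2)) }
    (fun r hr => Subtype.ext (hkill _ _ m.2 (Subgroup.mem_subgroupOf.mp hr)))
  have hinner : ∀ m m' : M, ((inner m (m' : M ⧸ N) : Z) : G) = ⁅(m : G), (m' : G)⁆ :=
    fun m m' => rfl
  let B0 : M ⧸ N →* (M ⧸ N →* Z) := QuotientGroup.lift N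
    { toFun := inner
      map_one' := by
        ext u
        simp [hinner]
      map_mul' := fun a b => by
        ext u
        simp [hinner, hc.mul_left (hM a.2) (hM b.2) (hM u.2)] }
    (fun r hr => by
      rw [MonoidHom.mem_ker]
      ext u
      show ⁅(r : G), (u : G)⁆ = 1
      rw [← commutatorElement_inv, hkill _ _ u.2 (Subgroup.mem_subgroupOf.mp hr), inv_one])
  have hB0 : ∀ a b : M, ((B0 (a : M ⧸ N) (b : M ⧸ N) : Z) : G) = ⁅(a : G), (b : G)⁆ :=
    fun a b => rfl
  let V := Additive (M ⧸ N)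
  let B : V →+ V →+ Additive Z := AddMonoidHom.mk'
    (fun u => MonoidHom.toAdditive (B0 u.toMul)) (fun u v => by
      apply DFunLike.ext
      intro w
      show Additive.ofMul (B0 (u.toMul * v.toMul) w.toMul) = _
      rw [map_mul]; rfl)
  obtain ⟨x, hx⟩ := hcyc.exists_generator
  have hord : orderOf x = Nat.card H := orderOf_eq_card_of_forall_mem_zpowers hx
  let mkEnd : H → AddMonoid.End V := fun y => MonoidHom.toAdditive
    (QuotientGroup.map N N (conjAut hHM y).toMonoidHom (fun u hu => by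
      rw [Subgroup.mem_comap, Subgroup.mem_subgroupOf, MulEquiv.coe_toMonoidHom, coe_conjAut]
      exact conj_mem_of_le_normalizer hHR y.2 hu))
  have hact : ∀ (y : H) (u : M), mkEnd y (Additive.ofMul (u : M ⧸ N)) =
      Additive.ofMul ((conjAut hHM y u : M) : M ⧸ N) := fun y u => rfl
  have hmul : ∀ y z : H, mkEnd (y * z) = mkEnd y * mkEnd z := by
    intro y z
    ext v
    obtain ⟨v, rfl⟩ := Additive.ofMul.surjective v
    induction v using QuotientGroup.induction_on with
    | _ u =>
      rw [AddMonoid.End.coe_mul, Function.comp_apply, hact, hact, hact, map_mul, MulAut.mul_apply]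
  have hone : mkEnd 1 = 1 := by
    ext v
    obtain ⟨v, rfl⟩ := Additive.ofMul.surjective v
    induction v using QuotientGroup.induction_on with
    | _ u =>
      rw [hact, map_one]; rfl
  haveI : Nontrivial V := by
    obtain ⟨m, hm, hmR⟩ := SetLike.exists_of_lt hlt
    refine ⟨⟨Additive.ofMul ((⟨m, hm⟩ : M) : M ⧸ N), 0, fun h => hmR ?_⟩⟩
    have h' : ((⟨m, hm⟩ : M) : M ⧸ N) = 1 := h
    rwa [QuotientGroup.eq_one_iff, Subgroup.mem_subgroupOf] at h'
  obtain ⟨k, hk, hk'⟩ := CycSymp.dvd_pow_add_one (p := p) (V := V)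
    (by
      intro v
      obtain ⟨v, rfl⟩ := Additive.ofMul.surjective v
      induction v using QuotientGroup.induction_on with
      | _ u =>
        rw [← ofMul_pow, ← QuotientGroup.mk_pow, ofMul_eq_zero, QuotientGroup.eq_one_iff,
          Subgroup.mem_subgroupOf]
        exact hZR (by simpa using hc.pow u (hM u.2)))
    B
    (by
      intro v
      obtain ⟨v, rfl⟩ := Additive.ofMul.surjective v
      induction v using QuotientGroup.induction_on with
      | _ u =>
        show Additive.ofMul (B0 (u : M ⧸ N) (u : M ⧸ N)) = 0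
        rw [ofMul_eq_zero]
        exact Subtype.ext (by rw [hB0, commutatorElement_self, Subgroup.coe_one]))
    (by
      intro v hv
      obtain ⟨v, rfl⟩ := Additive.ofMul.surjective v
      induction v using QuotientGroup.induction_on with
      | _ u =>
        rw [ofMul_eq_zero, QuotientGroup.eq_one_iff, Subgroup.mem_subgroupOf, hR]
        refine ⟨u.2, Subgroup.mem_centralizer_iff.mpr fun m hm => ?_⟩
        have h : B0 (u : M ⧸ N) ((⟨m, hm⟩ : M) : M ⧸ N) = 1 :=
          hv (Additive.ofMul ((⟨m, hm⟩ : M) : M ⧸ N))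
        have h' := congrArg (Subtype.val : Z → G) h
        rw [hB0, Subgroup.coe_one, commutatorElement_eq_one_iff_mul_comm] at h'
        exact h'.symm)
    (mkEnd x) (mkEnd x⁻¹)
    (by rw [← hmul, mul_inv_cancel, hone]) (by rw [← hmul, inv_mul_cancel, hone])
    (by
      intro v w
      obtain ⟨v, rfl⟩ := Additive.ofMul.surjective v
      obtain ⟨w, rfl⟩ := Additive.ofMul.surjective w
      induction v using QuotientGroup.induction_on with
      | _ a =>
        induction w using QuotientGroup.induction_on with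
        | _ b =>
          rw [hact, hact]
          show Additive.ofMul (B0 _ _) = Additive.ofMul (B0 _ _)
          congr 1
          apply Subtype.ext
          simp only [toMul_ofMul]
          rw [hB0, hB0, coe_conjAut, coe_conjAut, ← conjugate_commutatorElement]
          have hz : ((x : G) * ⁅(a : G), (b : G)⁆ * (x : G)⁻¹) = ⁅(a : G), (b : G)⁆ := by
            rw [mul_inv_eq_iff_eq_mul]
            exact (Subgroup.mem_centralizer_iff.mp (hc.fixZ x.2) _
              (hc.commutator_mem (hM a.2) (hM b.2))).symm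
          exact hz)
    (by
      intro W hW
      let U : Subgroup G :=
        ((W.toSubgroup'.comap (QuotientGroup.mk' N))).map M.subtype
      have hmemU : ∀ g, g ∈ U ↔ ∃ h : g ∈ M, Additive.ofMul ((⟨g, h⟩ : M) : M ⧸ N) ∈ W := by
        intro g
        constructor
        · rintro ⟨m, hm, rfl⟩
          exact ⟨m.2, hm⟩
        · rintro ⟨h, hg⟩
          exact ⟨⟨g, h⟩, hg, rfl⟩
      have hUM : U ≤ M := Subgroup.map_subtype_le _
      have hRU : R ≤ U := fun r hr => (hmemU r).mpr ⟨hRM hr, by
        have : ((⟨r, hRM hr⟩ : M) : M ⧸ N) = 1 := (QuotientGroup.eq_one_iff _).mpr hr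
        rw [this, ofMul_one]; exact W.zero_mem⟩
      have hHU : H ≤ Subgroup.normalizer (U : Set G) := by
        have hxU : (x : G) ∈ Subgroup.normalizer (U : Set G) :=
          Subgroup.mem_normalizer_fintype fun g hg => by
            obtain ⟨h, hg⟩ := (hmemU g).mp hg
            refine (hmemU _).mpr ⟨conj_mem_of_le_normalizer hHM x.2 h, ?_⟩
            exact hW _ hg
        intro y hy
        obtain ⟨n, hn⟩ := hx ⟨y, hy⟩
        have : y = (x : G) ^ n := by simpa using (congrArg Subtype.val hn).symm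
        rw [this]
        exact zpow_mem hxU n
      rcases eq_or_lt_of_le hRU with h | h
      · left
        rw [AddSubgroup.eq_bot_iff_forall]
        intro v hv
        obtain ⟨v, rfl⟩ := Additive.ofMul.surjective v
        induction v using QuotientGroup.induction_on with
        | _ u =>
          have : (u : G) ∈ R := h ▸ (hmemU u).mpr ⟨u.2, hv⟩
          rw [ofMul_eq_zero]
          exact (QuotientGroup.eq_one_iff _).mpr this
      · right
        have hUeq := hmin U h hUM hHU
        rw [eq_top_iff]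
        intro v _
        obtain ⟨v, rfl⟩ := Additive.ofMul.surjective v
        induction v using QuotientGroup.induction_on with
        | _ u =>
          obtain ⟨_, hu⟩ := (hmemU u).mp (hUeq.symm ▸ u.2)
          exact hu)
  refine ⟨k, ?_, ?_⟩
  · rw [← hk, Subgroup.relIndex, Subgroup.index]
    rfl
  · rw [← hord, orderOf_dvd_iff_pow_eq_one]
    by_contra hne
    have hpow : ∀ n : ℕ, mkEnd x ^ n = mkEnd (x ^ n) := by
      intro n
      induction n with
      | zero => rw [pow_zero, pow_zero, hone]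
      | succ n ih => rw [pow_succ, pow_succ, hmul, ih]
    rw [hpow] at hk'
    obtain ⟨m, hm, hmR⟩ := SetLike.exists_of_lt hlt
    set y := x ^ (p ^ k + 1) with hy
    refine hmR (hc.fixed_mem hM hRM hZR hHR y.2 (fun h => hne (Subtype.ext h)) hm ?_)
    have h := congrArg (fun f : AddMonoid.End V => f (Additive.ofMul ((⟨m, hm⟩ : M) : M ⧸ N))) hk'
    simp only [hact] at h
    have h3 := QuotientGroup.eq.mp (Additive.ofMul.injective h).symm
    rw [Subgroup.mem_subgroupOf] at h3
    simpa [coe_conjAut] using h3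

theorem Ctx.sign [Fact p.Prime] (hc : Ctx p P Z H) (hcyc : IsCyclic H) :
    ∀ n : ℕ, ∀ M : Subgroup G, Nat.card M = n → Z ≤ M → M ≤ P →
      H ≤ Subgroup.normalizer (M : Set G) →
      ∃ k, (M ⊓ Subgroup.centralizer (M : Set G)).relIndex M = p ^ (2 * k) ∧
        (((p : ZMod (Nat.card H)) ^ k) = 1 ∨ ((p : ZMod (Nat.card H)) ^ k) = -1) := by
  intro n
  induction n using Nat.strong_induction_on with
  | _ n ih =>
  intro M hn hZM hM hHM
  set R := M ⊓ Subgroup.centralizer (M : Set G) with hR
  rcases eq_or_lt_of_le (inf_le_left : R ≤ M) with heq | hlt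
  · exact ⟨0, by rw [hR, heq, Subgroup.relIndex_self]; simp, Or.inl (pow_zero _)⟩
  have hHR : H ≤ Subgroup.normalizer (R : Set G) :=
    le_normalizer_inf hHM (le_normalizer_centralizer hHM)
  have hZR : Z ≤ R := le_inf hZM (hc.central.trans (Subgroup.centralizer_le hM))
  let S : Set (Subgroup G) := {U | R < U ∧ U ≤ M ∧ H ≤ Subgroup.normalizer (U : Set G)}
  obtain ⟨U, ⟨hRU, hUM, hHU⟩, hUmin⟩ := (Set.toFinite S).exists_minimal ⟨M, hlt, le_rfl, hHM⟩
  rcases eq_or_lt_of_le hUM with hUeq | hUlt
  · obtain ⟨k, hk, hk'⟩ := hc.irreducible hcyc hM hR hZM hlt hHM (fun V h1 h2 h3 =>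
      le_antisymm h2 (hUeq ▸ hUmin ⟨h1, h2, h3⟩ (hUeq ▸ h2)))
    refine ⟨k, hk, Or.inr ?_⟩
    have h := (ZMod.natCast_eq_zero_iff _ _).mpr hk'
    push_cast at h
    exact eq_neg_of_add_eq_zero_left h
  -- reduce to `U` and to its centraliser in `M`
  have hUP : U ≤ P := hUM.trans hM
  set U' := M ⊓ Subgroup.centralizer (U : Set G) with hU'
  have hU'P : U' ≤ P := inf_le_left.trans hM
  have hRU' : R ≤ U' := le_inf inf_le_left
    (inf_le_right.trans (Subgroup.centralizer_le hUM))
  have hHU' : H ≤ Subgroup.normalizer (U' : Set G) :=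
    le_normalizer_inf hHM (le_normalizer_centralizer hHU)
  have hUR : U ⊓ Subgroup.centralizer (M : Set G) = R :=
    le_antisymm (inf_le_inf_right _ hUM) (le_inf hRU.le inf_le_right)
  have hU'R : U' ⊓ Subgroup.centralizer (M : Set G) = R :=
    le_antisymm (inf_le_inf_right _ inf_le_left) (le_inf hRU' inf_le_right)
  have h1 : U'.relIndex M = R.relIndex U := by
    rw [hU', Subgroup.inf_relIndex_left, hc.pairing hM hUP, ← Subgroup.inf_relIndex_left, hUR]
  have h2 : (M ⊓ Subgroup.centralizer (U' : Set G)).relIndex M = R.relIndex U' := by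
    rw [Subgroup.inf_relIndex_left, hc.pairing hM hU'P, ← Subgroup.inf_relIndex_left, hU'R]
  have h3 : R.relIndex M = R.relIndex U' * R.relIndex U := by
    rw [← Subgroup.relIndex_mul_relIndex R U' M hRU' inf_le_left, h1]
  have h4 : M ⊓ Subgroup.centralizer (U' : Set G) = U := by
    have hle : U ≤ M ⊓ Subgroup.centralizer (U' : Set G) :=
      le_inf hUM (Subgroup.le_centralizer_iff.mpr inf_le_right)
    refine (eq_of_le_of_not_lt hle fun hlt' => ?_).symm
    have e1 := Subgroup.relIndex_mul_relIndex R U _ hRU.le hle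
    have e2 := Subgroup.relIndex_mul_relIndex R (M ⊓ Subgroup.centralizer (U' : Set G)) M
      (hRU.le.trans hle) inf_le_left
    rw [h2, h3, mul_comm] at e2
    have hU0 : R.relIndex U' ≠ 0 := Subgroup.FiniteIndex.index_ne_zero
    have e3 := mul_left_cancel₀ hU0 e2
    rw [← e1] at e3
    have hR0 : R.relIndex U ≠ 0 := Subgroup.FiniteIndex.index_ne_zero
    exact hlt'.not_ge (Subgroup.relIndex_eq_one.mp (mul_eq_left₀ hR0 |>.mp e3))
  have hR' : U' ⊓ Subgroup.centralizer (U' : Set G) = U ⊓ Subgroup.centralizer (U : Set G) := by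
    apply le_antisymm
    · have h : U' ⊓ Subgroup.centralizer (U' : Set G) ≤ U := h4 ▸ inf_le_inf_right _ inf_le_left
      exact le_inf h (inf_le_left.trans inf_le_right)
    · refine le_inf (le_inf (inf_le_left.trans hUM) inf_le_right) ?_
      exact inf_le_left.trans (h4.symm.le.trans inf_le_right)
  have hcardlt : ∀ V : Subgroup G, V < M → Nat.card V < n := fun V hV =>
    hn ▸ lt_of_not_ge fun h => hV.ne (Subgroup.eq_of_le_of_card_ge hV.le h)
  have hU'lt : U' < M := by
    refine lt_of_le_of_ne inf_le_left fun h => hRU.not_ge ?_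
    rw [← Subgroup.relIndex_eq_one, ← h1, h, Subgroup.relIndex_self]
  obtain ⟨k', hk', hs'⟩ := ih _ (hcardlt _ hU'lt) U' rfl (hZR.trans hRU') hU'P hHU'
  rw [hR'] at hk'
  have hI : U ⊓ Subgroup.centralizer (U : Set G) = R ∨
      U ⊓ Subgroup.centralizer (U : Set G) = U := by
    rcases eq_or_lt_of_le (le_inf hRU.le (inf_le_right.trans (Subgroup.centralizer_le hUM)) :
      R ≤ U ⊓ Subgroup.centralizer (U : Set G)) with h | h
    · exact Or.inl h.symm
    · exact Or.inr (le_antisymm inf_le_left (hUmin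
        ⟨h, inf_le_left.trans hUM, le_normalizer_inf hHU (le_normalizer_centralizer hHU)⟩
        inf_le_left))
  rcases hI with hI | hI
  · -- nondegenerate
    obtain ⟨k, hk, hs⟩ := ih _ (hcardlt _ hUlt) U rfl (hZR.trans hRU.le) hUP hHU
    rw [hI] at hk hk'
    refine ⟨k' + k, by rw [h3, hk, hk', ← pow_add, mul_add], ?_⟩
    rw [pow_add]
    rcases hs with hs | hs <;> rcases hs' with hs' | hs' <;> simp [hs, hs']
  · -- isotropic
    rw [hI] at hk'
    obtain ⟨a, -, ha⟩ : ∃ a ≤ Nat.card P, R.relIndex U = p ^ a := by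
      obtain ⟨m, hm⟩ := hc.isP.exists_card_eq
      obtain ⟨a, ha, ha'⟩ := (Nat.dvd_prime_pow (Fact.out : p.Prime)).mp
        (hm ▸ dvd_trans (Subgroup.relIndex_dvd_card R U) (Subgroup.card_dvd_of_le hUP))
      exact ⟨a, ha.trans (hm ▸ (Nat.lt_pow_self (Fact.out : p.Prime).one_lt).le), ha'⟩
    have hUU' : U ≤ U' := le_inf hUM (inf_eq_left.mp hI)
    refine ⟨k' + a, ?_, ?_⟩
    · rw [h3, ← Subgroup.relIndex_mul_relIndex R U U' hRU.le hUU', hk', ha, ← pow_add, ← pow_add]
      ring_nf
    have hd := hc.card_dvd_sub_one hUP hRU.le hZR hHU hHR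
    rw [ha] at hd
    have h1 : ((p : ZMod (Nat.card H)) ^ a) = 1 := by
      have h := (ZMod.natCast_eq_zero_iff _ _).mpr hd
      rw [Nat.cast_sub (Nat.one_le_pow _ _ (Fact.out : p.Prime).pos), sub_eq_zero] at h
      exact_mod_cast h
    rw [pow_add, h1, mul_one]
    exact hs'

end Cfsg.Agent.H20.CycExtra
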