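import Mathlib

/-! An isometry of a nondegenerate alternating form on an elementary abelian `p`-group which
acts irreducibly has order dividing `p ^ k + 1`, where `p ^ (2 * k)` is the order of the group. -/

set_option autoImplicit false

namespace Cfsg.Agent.H20.CycSymp

variable {V C : Type*} [AddCommGroup V] [AddCommGroup C]

theorem dvd_pow_add_one [Finite V] [Nontrivial V] {p : ℕ} [hp : Fact p.Prime]
    (hV : ∀ v : V, p • v = 0) (B : V →+ V →+ C) (halt : ∀ v, B v v = 0)
    (hnd : ∀ v, (∀ w, B v w = 0) → v = 0) (φ ψ : AddMonoid.End V)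
    (hφψ : φ * ψ = 1) (hψφ : ψ * φ = 1) (hB : ∀ v w, B (φ v) (φ w) = B v w)
    (hirr : ∀ W : AddSubgroup V, (∀ w ∈ W, φ w ∈ W) → W = ⊥ ∨ W = ⊤) :
    ∃ k, Nat.card V = p ^ (2 * k) ∧ φ ^ (p ^ k + 1) = 1 := by
  classical
  set E := Subring.closure ({φ} : Set (AddMonoid.End V)) with hEdef
  haveI hEc : IsMulCommutative E := Subring.isMulCommutative_closure (by simp)
  letI : CommRing E := { (inferInstance : Ring E) with mul_comm := mul_comm' }
  haveI : Finite (AddMonoid.End V) := Finite.of_injective _ DFunLike.coe_injective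
  haveI : Finite E := inferInstance
  have hmem : φ ∈ E := Subring.subset_closure rfl
  have hinj : ∀ a : E, a ≠ 0 → ∀ v, (a : AddMonoid.End V) v = 0 → v = 0 := by
    intro a ha v hv
    rcases hirr (AddMonoidHom.ker (a : AddMonoid.End V)) (by
      intro w hw
      change (a : AddMonoid.End V) w = 0 at hw
      change (a : AddMonoid.End V) (φ w) = 0
      have e := congrArg (fun f : AddMonoid.End V => f w)
        (congrArg Subtype.val (mul_comm a ⟨φ, hmem⟩))
      simp only [Subring.coe_mul, AddMonoid.End.coe_mul, Function.comp_apply] at e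
      rw [e, hw, map_zero]) with h | h
    · exact (AddSubgroup.eq_bot_iff_forall _).mp h v hv
    · exfalso
      apply ha
      ext w
      have : w ∈ AddMonoidHom.ker (a : AddMonoid.End V) := by rw [h]; trivial
      exact this
  obtain ⟨v0, hv0⟩ := exists_ne (0 : V)
  haveI : Nontrivial E := ⟨1, 0, fun h => hv0 <| by
    simpa using congrArg (fun f : E => (f : AddMonoid.End V) v0) h⟩
  haveI : NoZeroDivisors E := ⟨fun {a b} hab => by
    by_contra hne
    push_neg at hne
    apply hne.2
    ext w
    have : (a : AddMonoid.End V) ((b : AddMonoid.End V) w) = 0 := by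
      simpa using congrArg (fun f : E => (f : AddMonoid.End V) w) hab
    simpa using hinj a hne.1 _ this⟩
  haveI : IsDomain E := NoZeroDivisors.to_isDomain _
  letI : Field E := (Finite.isField_of_domain E).toField
  -- `V` is free of rank one over `E`
  have hevinj : Function.Injective fun a : E => (a : AddMonoid.End V) v0 := by
    intro a b hab
    by_contra hne
    exact hv0 (hinj (a - b) (sub_ne_zero.mpr hne) v0 (by
      show (a : AddMonoid.End V) v0 - (b : AddMonoid.End V) v0 = 0
      exact sub_eq_zero.mpr hab))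
  have hevsurj : Function.Surjective fun a : E => (a : AddMonoid.End V) v0 := by
    let ev : E →+ V :=
      { toFun := fun a => (a : AddMonoid.End V) v0, map_zero' := rfl,
        map_add' := fun a b => rfl }
    rcases hirr ev.range (by
      rintro w ⟨a, rfl⟩
      exact ⟨⟨φ, hmem⟩ * a, rfl⟩) with h | h
    · exact absurd ((AddSubgroup.eq_bot_iff_forall _).mp h v0 ⟨1, rfl⟩) hv0
    · intro v
      have : v ∈ ev.range := by rw [h]; trivial
      exact this
  have hcard : Nat.card V = Nat.card E :=
    (Nat.card_congr (Equiv.ofBijective _ ⟨hevinj, hevsurj⟩)).symm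
  -- the inverse of `φ` lies in `E`
  set x : E := ⟨φ, hmem⟩ with hxdef
  have hx0 : x ≠ 0 := by
    intro h
    apply hv0
    have h1 := congrArg (fun f : AddMonoid.End V => f v0) hψφ
    have h2 : φ = 0 := congrArg Subtype.val h
    simpa [h2] using h1.symm
  have hψ : ψ = ((x⁻¹ : E) : AddMonoid.End V) := by
    have h := congrArg Subtype.val (mul_inv_cancel₀ hx0)
    simp only [Subring.coe_mul, Subring.coe_one, hxdef] at h
    calc ψ = ψ * (φ * ((x⁻¹ : E) : AddMonoid.End V)) := by rw [h, mul_one]
      _ = _ := by rw [← mul_assoc, hψφ, one_mul]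
  have hflip : ∀ v w, B v w = - B w v := by
    intro v w
    have h := halt (v + w)
    simp only [map_add, AddMonoidHom.add_apply, halt, zero_add, add_zero] at h
    exact eq_neg_of_add_eq_zero_right h
  have hnd' : ∀ w, (∀ v, B v w = 0) → w = 0 := fun w hw =>
    hnd w fun v => by rw [hflip, hw, neg_zero]
  have hadj : ∀ a ∈ E, ∃ b : E, ∀ u v, B (a u) v = B u ((b : AddMonoid.End V) v) := by
    intro a ha
    induction ha using Subring.closure_induction with
    | mem y hy =>
      rw [Set.mem_singleton_iff] at hy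
      subst hy
      refine ⟨x⁻¹, fun u v => ?_⟩
      rw [← hψ]
      have h1 := hB u (ψ v)
      have h2 : y (ψ v) = v := by
        simpa using congrArg (fun f : AddMonoid.End V => f v) hφψ
      rwa [h2] at h1
    | zero => exact ⟨0, fun u v => by simp⟩
    | one => exact ⟨1, fun u v => by simp⟩
    | add y z _ _ hy hz =>
      obtain ⟨b, hb⟩ := hy
      obtain ⟨c, hc⟩ := hz
      refine ⟨b + c, fun u v => ?_⟩
      show B (y u + z u) v = B u ((b : AddMonoid.End V) v + (c : AddMonoid.End V) v)
      rw [map_add, AddMonoidHom.add_apply, hb, hc, map_add]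
    | neg y _ hy =>
      obtain ⟨b, hb⟩ := hy
      refine ⟨-b, fun u v => ?_⟩
      show B (-(y u)) v = B u (-((b : AddMonoid.End V) v))
      rw [map_neg, AddMonoidHom.neg_apply, hb, map_neg]
    | mul y z _ _ hy hz =>
      obtain ⟨b, hb⟩ := hy
      obtain ⟨c, hc⟩ := hz
      exact ⟨c * b, fun u v => by simp [hb, hc]⟩
  choose σ0 hσ0 using fun a : E => hadj a.1 a.2
  have huniq : ∀ b c : E, (∀ u v, B u ((b : AddMonoid.End V) v) = B u ((c : AddMonoid.End V) v)) →
      b = c := by
    intro b c h
    ext v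
    exact sub_eq_zero.mp (hnd' _ fun u => by rw [map_sub, h, sub_self])
  let σ : E →+* E :=
    { toFun := σ0
      map_one' := huniq _ _ fun u v => by rw [← hσ0]; simp
      map_mul' := fun a b => huniq _ _ fun u v => by
        rw [mul_comm (σ0 a) (σ0 b)]
        simp only [Subring.coe_mul, AddMonoid.End.coe_mul, Function.comp_apply]
        rw [← hσ0, ← hσ0, ← hσ0]
        simp
      map_zero' := huniq _ _ fun u v => by rw [← hσ0]; simp
      map_add' := fun a b => huniq _ _ fun u v => by
        rw [← hσ0]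
        show B ((a : AddMonoid.End V) u + (b : AddMonoid.End V) u) v =
          B u ((σ0 a : AddMonoid.End V) v + (σ0 b : AddMonoid.End V) v)
        rw [map_add, AddMonoidHom.add_apply, map_add, ← hσ0, ← hσ0] }
  have hσσ : ∀ a, σ0 (σ0 a) = a := fun a => huniq _ _ fun u v => by
    rw [← hσ0, hflip, ← hσ0, hflip, neg_neg]
  have hσx : σ0 x = x⁻¹ := huniq _ _ fun u v => by
    rw [← hσ0, ← hψ]
    have h1 := hB u (ψ v)
    have h2 : φ (ψ v) = v := by simpa using congrArg (fun f : AddMonoid.End V => f v) hφψ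
    rwa [h2] at h1
  -- `σ` is nontrivial
  have hxx : x⁻¹ ≠ x := by
    intro h
    have hsq : x * x = 1 := by nth_rw 1 [← h]; exact inv_mul_cancel₀ hx0
    have hint : ∀ a ∈ E, ∃ n : ℤ, a = n := by
      intro a ha
      induction ha using Subring.closure_induction with
      | mem y hy =>
        rw [Set.mem_singleton_iff] at hy
        subst hy
        rcases mul_self_eq_one_iff.mp hsq with h1 | h1
        · exact ⟨1, by simpa [hxdef] using congrArg Subtype.val h1⟩
        · exact ⟨-1, by simpa [hxdef] using congrArg Subtype.val h1⟩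
      | zero => exact ⟨0, by simp⟩
      | one => exact ⟨1, by simp⟩
      | add y z _ _ hy hz =>
        obtain ⟨m, rfl⟩ := hy
        obtain ⟨n, rfl⟩ := hz
        exact ⟨m + n, by push_cast; rfl⟩
      | neg y _ hy =>
        obtain ⟨m, rfl⟩ := hy
        exact ⟨-m, by push_cast; rfl⟩
      | mul y z _ _ hy hz =>
        obtain ⟨m, rfl⟩ := hy
        obtain ⟨n, rfl⟩ := hz
        exact ⟨m * n, by push_cast; rfl⟩
    apply hv0
    refine hnd v0 fun w => ?_
    obtain ⟨a, rfl⟩ := hevsurj w
    obtain ⟨n, hn⟩ := hint a.1 a.2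
    simp [hn, halt]
  -- the fixed field
  let K : Subfield E := RingHom.eqLocusField σ (RingHom.id E)
  have hK : ∀ a : E, a ∈ K ↔ σ0 a = a := fun a => Iff.rfl
  set t := x + x⁻¹ with ht
  have htK : t ∈ K := by
    rw [hK]
    have : σ0 (x + x⁻¹) = σ0 x + σ0 x⁻¹ := σ.map_add _ _
    rw [ht, this, hσx, show σ0 x⁻¹ = x by rw [← hσx, hσσ], add_comm]
  have hquad : x * x = t * x - 1 := by
    rw [ht, add_mul, inv_mul_cancel₀ hx0]; ring
  have hspan : ∀ a : E, ∃ b ∈ K, ∃ c ∈ K, a = b + c * x := by
    rintro ⟨a, ha⟩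
    induction ha using Subring.closure_induction with
    | mem y hy =>
      rw [Set.mem_singleton_iff] at hy
      subst hy
      exact ⟨0, K.zero_mem, 1, K.one_mem, by simp [hxdef]⟩
    | zero => exact ⟨0, K.zero_mem, 0, K.zero_mem, by ext; simp⟩
    | one => exact ⟨1, K.one_mem, 0, K.zero_mem, by ext; simp⟩
    | add y z hy' hz' hy hz =>
      obtain ⟨b, hb, c, hc, e⟩ := hy
      obtain ⟨b', hb', c', hc', e'⟩ := hz
      refine ⟨b + b', K.add_mem hb hb', c + c', K.add_mem hc hc', ?_⟩
      calc (⟨y + z, _⟩ : E) = ⟨y, hy'⟩ + ⟨z, hz'⟩ := rfl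
        _ = _ := by rw [e, e']; ring
    | neg y hy' hy =>
      obtain ⟨b, hb, c, hc, e⟩ := hy
      refine ⟨-b, K.neg_mem hb, -c, K.neg_mem hc, ?_⟩
      calc (⟨-y, _⟩ : E) = -⟨y, hy'⟩ := rfl
        _ = _ := by rw [e]; ring
    | mul y z hy' hz' hy hz =>
      obtain ⟨b, hb, c, hc, e⟩ := hy
      obtain ⟨b', hb', c', hc', e'⟩ := hz
      refine ⟨b * b' - c * c', K.sub_mem (K.mul_mem hb hb') (K.mul_mem hc hc'),
        b * c' + c * b' + c * c' * t, K.add_mem (K.add_mem (K.mul_mem hb hc') (K.mul_mem hc hb'))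
          (K.mul_mem (K.mul_mem hc hc') htK), ?_⟩
      calc (⟨y * z, _⟩ : E) = ⟨y, hy'⟩ * ⟨z, hz'⟩ := rfl
        _ = b * b' + (b * c' + c * b') * x + c * c' * (x * x) := by rw [e, e']; ring
        _ = _ := by rw [hquad]; ring
  have hbij : Function.Bijective fun bc : K × K => (bc.1 : E) + (bc.2 : E) * x := by
    constructor
    · rintro ⟨b, c⟩ ⟨b', c'⟩ h
      simp only at h
      have hc : c = c' := by
        by_contra hne
        apply hxx
        have hne' : (c : E) - c' ≠ 0 := sub_ne_zero.mpr fun e => hne (Subtype.ext e)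
        have hxK : x ∈ K := by
          have : x = ((b' : E) - b) / ((c : E) - c') := by
            rw [eq_div_iff hne']; linear_combination h
          rw [this]
          exact K.div_mem (K.sub_mem b'.2 b.2) (K.sub_mem c.2 c'.2)
        rw [← hσx]; exact (hK x).mp hxK
      subst hc
      simp only [Prod.mk.injEq, and_true]
      exact Subtype.ext (add_right_cancel h)
    · intro a
      obtain ⟨b, hb, c, hc, e⟩ := hspan a
      exact ⟨(⟨b, hb⟩, ⟨c, hc⟩), e.symm⟩
  have hq : Nat.card E = Nat.card K ^ 2 := by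
    rw [← Nat.card_congr (Equiv.ofBijective _ hbij), Nat.card_prod, sq]
  obtain ⟨m, hm⟩ : ∃ m, Nat.card V = p ^ m := by
    have : IsPGroup p (Multiplicative V) := fun v => ⟨1, by
      rw [pow_one]; exact congrArg Multiplicative.ofAdd (hV (Multiplicative.toAdd v))⟩
    exact this.exists_card_eq
  obtain ⟨k, -, hk⟩ : ∃ k ≤ m, Nat.card K = p ^ k :=
    (Nat.dvd_prime_pow hp.out).mp (hm ▸ hcard ▸ hq ▸ dvd_pow_self _ two_ne_zero)
  refine ⟨k, by rw [hcard, hq, hk, ← pow_mul, mul_comm], ?_⟩
  have hpE : (p : E) = 0 := by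
    ext v
    simp [hV v]
  haveI : CharP E p := (CharP.ringChar_of_prime_eq_zero hp.out hpE) ▸ ringChar.charP E
  letI : Fintype K := Fintype.ofFinite _
  letI : Fintype E := Fintype.ofFinite _
  have hfixK : ∀ a ∈ K, a ^ p ^ k = a := by
    intro a ha
    have := FiniteField.pow_card (⟨a, ha⟩ : K)
    rw [← Nat.card_eq_fintype_card, hk] at this
    exact congrArg Subtype.val this
  have hroot : (x ^ p ^ k - x) * (x ^ p ^ k - x⁻¹) = 0 := by
    have h1 : (x * x) ^ p ^ k = (t * x - 1) ^ p ^ k := by rw [hquad]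
    rw [sub_pow_char_pow, mul_pow, mul_pow, hfixK t htK, one_pow] at h1
    have h2 : x * x⁻¹ = 1 := mul_inv_cancel₀ hx0
    rw [ht] at h1
    linear_combination h1 + h2
  rcases mul_eq_zero.mp hroot with h | h
  · exfalso
    have hall : ∀ a : E, a ^ p ^ k = a := by
      intro a
      obtain ⟨b, hb, c, hc, rfl⟩ := hspan a
      rw [add_pow_char_pow, mul_pow, hfixK b hb, hfixK c hc, sub_eq_zero.mp h]
    obtain ⟨g, hg⟩ := IsCyclic.exists_generator (α := Eˣ)
    have hg1 : g ^ (p ^ k - 1) = 1 := by
      have hpk : 1 ≤ p ^ k := Nat.one_le_pow _ _ hp.out.pos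
      apply Units.ext
      have := hall (g : E)
      rw [← Nat.sub_add_cancel hpk, pow_succ] at this
      simpa using mul_eq_right₀ (Units.ne_zero g) |>.mp this
    have hdvd := orderOf_dvd_of_pow_eq_one hg1
    rw [orderOf_eq_card_of_forall_mem_zpowers hg, Nat.card_units, hq, hk] at hdvd
    have h2 : 2 ≤ p ^ k := by
      rw [← hk]
      exact Finite.one_lt_card
    have hle := Nat.le_of_dvd (by omega) hdvd
    have : 2 * p ^ k ≤ (p ^ k) ^ 2 := by rw [sq]; exact Nat.mul_le_mul_right _ h2
    omega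
  · have hx1 : x ^ (p ^ k + 1) = 1 := by
      rw [pow_succ, sub_eq_zero.mp h, inv_mul_cancel₀ hx0]
    simpa [hxdef] using congrArg Subtype.val hx1

end Cfsg.Agent.H20.CycSymp
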