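import Cfsg.Agent.H20.TwoE.Group

/-! Hall–Higman, Berger–Gross: a quadratic element central in a Sylow `p`-subgroup (`p` odd) is not
deep in the derived series; hence `p`-length at most derived length. -/

set_option autoImplicit false
open scoped commutatorElement IsMulCommutative

namespace Cfsg.Agent.H20.DLen

open Module

universe u v w

section linear

variable {k : Type v} [Field k] {V : Type w} [AddCommGroup V] [Module k V]

theorem mem_stab_of_mapsTo {g : (Module.End k V)ˣ} {E : Submodule k V} {n : ℕ} (hn : 0 < n)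
    (hg : g ^ n = 1) (h : ∀ v ∈ E, (g : Module.End k V) v ∈ E) : g ∈ TwoE.stab E := by
  have hpow : ∀ (i : ℕ), ∀ v ∈ E, ((g ^ i : (Module.End k V)ˣ) : Module.End k V) v ∈ E := by
    intro i
    induction i with
    | zero => intro v hv; exact hv
    | succ i ih =>
      intro v hv
      rw [pow_succ', Units.val_mul, Module.End.mul_apply]
      exact h _ (ih v hv)
  intro v
  refine ⟨fun hv => ?_, h v⟩
  have h1 := hpow (n - 1) _ hv
  rwa [← Module.End.mul_apply, ← Units.val_mul, ← pow_succ, Nat.sub_add_cancel hn, hg] at h1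

set_option maxHeartbeats 1600000 in
/-- One reduction step. -/
theorem quad_step [IsAlgClosed k] [FiniteDimensional k V] [Nontrivial V] {p : ℕ} [Fact p.Prime]
    [CharP k p] (hp3 : p = 3) (S P : Subgroup (Module.End k V)ˣ) [Finite S] [Finite P]
    (hS : IsPGroup 2 S) (hP : IsPGroup p P)
    (hPS : P ≤ Subgroup.normalizer (S : Set (Module.End k V)ˣ)) (z : (Module.End k V)ˣ) (hzP : z ∈ P)
    (hzc : ∀ g ∈ P, Commute z g) (hzd : TwoE.Def (p ^ (0 + 1)) z) (hne : ∃ s ∈ S, ¬ Commute s z) :
    z ∉ ⁅P, P⁆ ∨ ∃ (E : Submodule k V) (q : V →ₗ[k] E), finrank k E < finrank k V ∧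
      (∀ v : E, q v = v) ∧
      (∀ g ∈ P, g ∈ TwoE.stab E ∨ ∀ v ∈ E, q ((g : Module.End k V) v) = 0) ∧ z ∈ TwoE.stab E ∧
      ∃ s ∈ S, s ∈ TwoE.stab E ∧ ∃ v ∈ E, ((z * s : (Module.End k V)ˣ) : Module.End k V) v ≠
        ((s * z : (Module.End k V)ˣ) : Module.End k V) v := by
  classical
  have hp : p.Prime := Fact.out
  have hp2 : p ≠ 2 := by omega
  obtain ⟨e, he⟩ : ∃ e, z ^ p ^ e = 1 := by
    obtain ⟨e, he⟩ := hP ⟨z, hzP⟩
    exact ⟨e, congrArg Subtype.val he⟩
  have hts : ∀ s ∈ S, ⁅s, z⁆ ∈ S := fun s hs => by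
    rw [commutatorElement_def, mul_assoc, mul_assoc, ← mul_assoc z]
    exact mul_mem hs ((Subgroup.mem_normalizer_iff.mp (hPS hzP) _).mp (inv_mem hs))
  obtain ⟨s₀, hs₀, hs₀z⟩ := hne
  set t := ⁅s₀, z⁆
  have htz : ¬ Commute z t := by
    intro h
    obtain ⟨f, hf⟩ := hS ⟨t, hts s₀ hs₀⟩
    exact hs₀z (TwoE.commute_of_commute_commutator hp2 he (congrArg Subtype.val hf) h)
  by_cases hB : ∃ B : Subgroup (Module.End k V)ˣ, B ≤ S ∧ S ≤ Subgroup.normalizer (B : Set _) ∧
      P ≤ Subgroup.normalizer (B : Set _) ∧ (∀ u ∈ B, ∀ u' ∈ B, u * u' = u' * u) ∧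
      ∃ u ∈ B, ∀ γ : k, (u : Module.End k V) ≠ γ • 1
  · -- a weight space
    obtain ⟨B, hBS, hSB, hPB, hBc, u₀, hu₀, hu₀ns⟩ := hB
    haveI : Finite B := Finite.of_injective _ (Subgroup.inclusion_injective hBS)
    let f : B → Module.End k V := fun u => ((u : (Module.End k V)ˣ) : Module.End k V)
    have hcardk : (Nat.card B : k) ≠ 0 := by
      obtain ⟨i, hi⟩ := (hS.to_le hBS).exists_card_eq
      rw [hi, Ne, CharP.cast_eq_zero_iff k p]
      exact fun h => hp2 ((Nat.prime_dvd_prime_iff_eq hp Nat.prime_two).mp (hp.dvd_of_dvd_pow h))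
    have hspan : ⨆ χ : B → k, TB.weight f χ = ⊤ := by
      have hss : ∀ u : B, (f u).IsSemisimple := fun u => by
        refine Module.End.isSemisimple_of_squarefree_aeval_eq_zero
          (p := (Polynomial.X ^ Nat.card B - 1 : Polynomial k))
          (Polynomial.X_pow_sub_one_separable_iff.mpr hcardk).squarefree ?_
        simp only [map_sub, map_pow, Polynomial.aeval_X, map_one, f, ← Units.val_pow_eq_pow_val,
          ← SubgroupClass.coe_pow, pow_card_eq_one']
        simp
      have h := Module.End.iSup_iInf_maxGenEigenspace_eq_top_of_forall_mapsTo f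
        (fun i j φ => Module.End.mapsTo_maxGenEigenspace_of_comm
          (congrArg Units.val (hBc _ j.2 _ i.2)) φ)
        (fun i => Module.End.iSup_maxGenEigenspace_eq_top (f i))
      rw [eq_top_iff, ← h]
      refine iSup_le fun χ => le_iSup_of_le χ fun w hw i => ?_
      have hwi := (Submodule.mem_iInf _).mp hw i
      rw [(Module.End.isFinitelySemisimple_iff_isSemisimple.mpr (hss i)).maxGenEigenspace_eq_eigenspace,
        Module.End.mem_eigenspace_iff] at hwi
      exact hwi
    let shift : (Module.End k V)ˣ → (B → k) → (B → k) := fun g χ u =>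
      if h : g⁻¹ * u * g ∈ B then χ ⟨_, h⟩ else 0
    have hshift : ∀ g ∈ Subgroup.normalizer (B : Set _), ∀ χ, ∀ v ∈ TB.weight f χ,
        (g : Module.End k V) v ∈ TB.weight f (shift g χ) := by
      intro g hg χ v hv u
      have hmem : g⁻¹ * u * g ∈ B := (Subgroup.mem_normalizer_iff''.mp hg _).mp u.2
      show f u _ = shift g χ u • _
      simp only [shift, dif_pos hmem, f, ← map_smul]
      rw [← hv ⟨_, hmem⟩]
      simp only [f, ← Module.End.mul_apply, ← Units.val_mul]
      congr 2
      group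
    have hdisj : ∀ χ χ', χ ≠ χ' → ∀ v, v ∈ TB.weight f χ → v ∈ TB.weight f χ' → v = 0 := by
      intro χ χ' hne v hv hv'
      obtain ⟨u, hu⟩ := Function.ne_iff.mp hne
      have h1 : (χ u - χ' u) • v = 0 := by rw [sub_smul, ← hv u, ← hv' u, sub_self]
      exact (smul_eq_zero.mp h1).resolve_left (sub_ne_zero.mpr hu)
    have hz1 : z ^ p = 1 := by simpa using hzd.pow_eq_one
    have hzE : ∀ χ, ∀ v ∈ TB.weight f χ, (z : Module.End k V) v ∈ TB.weight f χ := by
      intro χ v hv
      rcases eq_or_ne v 0 with rfl | hv0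
      · rw [map_zero]; exact zero_mem _
      by_contra hne
      have hshne : shift z χ ≠ χ := fun h => hne (h ▸ hshift z (hPB hzP) χ v hv)
      have hit : ∀ l : ℕ, ((z : Module.End k V) ^ l) v ∈ TB.weight f ((shift z)^[l] χ) := by
        intro l
        induction l with
        | zero => exact hv
        | succ l ih =>
          rw [Function.iterate_succ_apply', pow_succ', Module.End.mul_apply]
          exact hshift z (hPB hzP) _ _ ih
      have hper : Function.IsPeriodicPt (shift z) p χ := by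
        by_contra hnp
        have h := hit p
        rw [← Units.val_pow_eq_pow_val, hz1] at h
        exact hv0 (hdisj _ _ hnp v h hv)
      have hmin : Function.minimalPeriod (shift z) χ = p :=
        ((hp.eq_one_or_self_of_dvd _ hper.minimalPeriod_dvd).resolve_left fun h =>
          hshne (Function.minimalPeriod_eq_one_iff_isFixedPt.mp h))
      have hsum := congrArg (fun F : Module.End k V => F v) hzd
      simp only [LinearMap.sum_apply, LinearMap.zero_apply, zero_add, pow_one] at hsum
      have h0 := TB.eq_zero_of_sum_weight f (fun r => (shift z)^[r] χ) (Finset.range p)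
        (fun r hr r' hr' hrr => (Function.iterate_eq_iterate_iff_of_lt_minimalPeriod
          (hmin.symm ▸ Finset.mem_range.mp hr) (hmin.symm ▸ Finset.mem_range.mp hr')).mp hrr)
        (fun r => ((z : Module.End k V) ^ r) v) (fun r _ => hit r) hsum 0
        (Finset.mem_range.mpr hp.pos)
      exact hv0 (by simpa using h0)
    have hzcomm : ∀ u ∈ B, Commute z u := by
      intro u hu
      refine Units.ext (LinearMap.ext fun v => ?_)
      suffices hle : ⨆ χ : B → k, TB.weight f χ ≤ LinearMap.eqLocus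
          ((z * u : (Module.End k V)ˣ) : Module.End k V) ((u * z : (Module.End k V)ˣ) : Module.End k V)
        from hle (hspan ▸ Submodule.mem_top)
      refine iSup_le fun χ w hw => ?_
      rw [LinearMap.mem_eqLocus, Units.val_mul, Units.val_mul, Module.End.mul_apply,
        Module.End.mul_apply]
      have h1 : f ⟨u, hu⟩ w = χ ⟨u, hu⟩ • w := hw _
      have h2 : f ⟨u, hu⟩ ((z : Module.End k V) w) = χ ⟨u, hu⟩ • (z : Module.End k V) w :=
        hzE χ w hw _
      exact ((congrArg _ h1).trans (map_smul _ _ _)).trans h2.symm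
    have htcomm : ∀ u ∈ B, Commute t u := by
      intro u hu
      have hsc : Commute (s₀ * z * s₀⁻¹) u := by
        have h := (hzcomm _ ((Subgroup.mem_normalizer_iff''.mp (hSB hs₀) _).mp hu)).map (MulAut.conj s₀)
        simpa [MulAut.conj_apply, mul_assoc] using h
      simp only [t, commutatorElement_def]
      exact hsc.mul_left (hzcomm u hu).inv_left
    obtain ⟨χ, v, hv, hvne⟩ : ∃ χ, ∃ v ∈ TB.weight f χ,
        ((z * t : (Module.End k V)ˣ) : Module.End k V) v ≠ ((t * z : (Module.End k V)ˣ) : Module.End k V) v := by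
      by_contra hcon
      push Not at hcon
      refine htz (Units.ext (LinearMap.ext fun v => ?_))
      suffices hle : ⨆ χ : B → k, TB.weight f χ ≤ LinearMap.eqLocus
          ((z * t : (Module.End k V)ˣ) : Module.End k V) ((t * z : (Module.End k V)ˣ) : Module.End k V)
        from hle (hspan ▸ Submodule.mem_top)
      exact iSup_le fun χ w hw => hcon χ w hw
    set E := TB.weight f χ
    have hfin : ∀ g : (Module.End k V)ˣ, (g ∈ P ∨ g ∈ S) → ∃ n, 0 < n ∧ g ^ n = 1 := by
      rintro g (hg | hg)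
      · exact ⟨Nat.card P, Nat.card_pos, congrArg Subtype.val (pow_card_eq_one' (x := (⟨g, hg⟩ : P)))⟩
      · exact ⟨Nat.card S, Nat.card_pos, congrArg Subtype.val (pow_card_eq_one' (x := (⟨g, hg⟩ : S)))⟩
    have htE : t ∈ TwoE.stab E := by
      obtain ⟨n, hn, htn⟩ := hfin t (Or.inr (hts s₀ hs₀))
      refine mem_stab_of_mapsTo hn htn fun w hw u => ?_
      have e' : f u ((t : Module.End k V) w) = (t : Module.End k V) (f u w) :=
        congrArg (fun g : (Module.End k V)ˣ => (g : Module.End k V) w) (htcomm u u.2).eq.symm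
      rw [e', hw u, map_smul]
    let E' : Submodule k V := ⨆ χ' ∈ {χ' : B → k | χ' ≠ χ}, TB.weight f χ'
    have hcompl : IsCompl E E' := by
      refine ⟨Submodule.disjoint_def.mpr fun w hw hw' => ?_, codisjoint_iff.mpr (eq_top_iff.mpr ?_)⟩
      · have hw'' : w ∈ ⨆ χ' : {χ' : B → k // χ' ≠ χ}, TB.weight f χ'.1 := by
          rw [iSup_subtype]; exact hw'
        obtain ⟨F, hF, hFsum⟩ := (Submodule.mem_iSup_iff_exists_finsupp _ _).mp hw''
        let W : Option {χ' : B → k // χ' ≠ χ} → V := fun o => o.elim (-w) F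
        let ψ : Option {χ' : B → k // χ' ≠ χ} → B → k := fun o => o.elim χ Subtype.val
        have h := TB.eq_zero_of_sum_weight f ψ (insert none (F.support.image some)) ?_ W ?_ ?_ none
          (Finset.mem_insert_self _ _)
        · exact neg_eq_zero.mp h
        · rintro (_ | a) - (_ | b) - hab
          · rfl
          · exact absurd hab.symm b.2
          · exact absurd hab a.2
          · exact congrArg some (Subtype.ext hab)
        · rintro (_ | a) -
          · exact neg_mem hw
          · exact hF a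
        · rw [Finset.sum_insert (by simp), Finset.sum_image (by simp)]
          show -w + ∑ i ∈ F.support, F i = 0
          rw [← hFsum, Finsupp.sum, neg_add_cancel]
      · rw [← hspan]
        refine iSup_le fun χ' => ?_
        rcases eq_or_ne χ' χ with rfl | h
        · exact le_sup_left
        · exact le_sup_of_le_right (le_iSup₂ (f := fun χ' (_ : χ' ∈ {χ' : B → k | χ' ≠ χ}) => TB.weight f χ') χ' h)
    have hEtop : E ≠ ⊤ := fun h => hu₀ns (χ ⟨u₀, hu₀⟩)
      (LinearMap.ext fun v => (h ▸ Submodule.mem_top : v ∈ E) ⟨u₀, hu₀⟩)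
    right
    refine ⟨E, Submodule.linearProjOfIsCompl E E' hcompl, Submodule.finrank_lt hEtop,
      fun w => Submodule.linearProjOfIsCompl_apply_left hcompl w, fun g hg => ?_,
      mem_stab_of_mapsTo (pow_pos hp.pos e) he (hzE χ), t, hts s₀ hs₀, htE, v, hv, hvne⟩
    by_cases hgχ : shift g χ = χ
    · left
      obtain ⟨n, hn, hgn⟩ := hfin g (Or.inl hg)
      refine mem_stab_of_mapsTo hn hgn fun w hw => ?_
      have h := hshift g (hPB hg) χ w hw
      rwa [hgχ] at h
    · right
      intro w hw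
      refine (Submodule.linearProjOfIsCompl_apply_eq_zero_iff hcompl).mpr ?_
      exact le_iSup₂ (f := fun χ' (_ : χ' ∈ {χ' : B → k | χ' ≠ χ}) => TB.weight f χ') _ hgχ
        (hshift g (hPB hg) χ w hw)
  · -- scalar case
    push Not at hB
    left
    obtain ⟨hZscal, hclass⟩ := TwoE.center_scalar_of_forall (p := p) S P hS hPS hB
    letI := TwoE.centerCommGroup S hclass
    let θ := TwoE.centerAct S P hPS
    have hθmk := TwoE.centerAct_mk S P hPS
    have hX : IsPGroup 2 (S ⧸ Subgroup.center S) := hS.to_quotient _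
    have hcop : (Nat.card (S ⧸ Subgroup.center S)).Coprime p := by
      obtain ⟨i, hi⟩ := hX.exists_card_eq
      rw [hi]
      exact ((Nat.coprime_primes Nat.prime_two hp).mpr (Ne.symm hp2)).pow_left i
    set yb := θ ⟨z, hzP⟩ with hyb
    have hybp : yb ^ p = 1 := by
      rw [hyb, ← map_pow]
      convert map_one θ
      exact Subtype.ext (by simpa using hzd.pow_eq_one)
    set W := (TwoE.dl yb).range
    have hcard4 : Nat.card W ≤ 4 := by
      have h := TwoE.card_range_of_def (kk := 1) (by rw [hp3]; rfl) hp2 S P hS hPS hZscal hclass 0 z hzP hzd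
      rw [← MonoidHom.range_eq_map, pow_zero, pow_one] at h
      exact h.trans (by norm_num)
    have hWne : W ≠ ⊥ := by
      intro hW
      apply htz
      obtain ⟨u', h1, h2⟩ := hθmk ⟨z, hzP⟩ ⟨s₀, hs₀⟩
      have h3 : ((⟨s₀, hs₀⟩ : S) : S ⧸ Subgroup.center S) = (u' : S ⧸ Subgroup.center S) := by
        rw [← h1]
        have : TwoE.dl yb ((⟨s₀, hs₀⟩ : S) : S ⧸ Subgroup.center S) = 1 := by
          rw [← Subgroup.mem_bot, ← hW]; exact ⟨_, rfl⟩
        rwa [TwoE.dl_apply, div_eq_one] at this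
      rw [QuotientGroup.eq] at h3
      obtain ⟨γ, hγ⟩ := hZscal ((⟨s₀, hs₀⟩ : S) * u'⁻¹) (by
        have h4 := inv_mem h3
        rw [mul_inv_rev, inv_inv] at h4
        rwa [Subgroup.Normal.mem_comm_iff (inferInstance : (Subgroup.center S).Normal)] at h4)
      have ht : t = ((⟨s₀, hs₀⟩ * u'⁻¹ : S) : (Module.End k V)ˣ) := by
        rw [Subgroup.coe_mul, Subgroup.coe_inv, h2]
        simp only [t, commutatorElement_def]
        group
      refine Units.ext ?_
      rw [ht, Units.val_mul, Units.val_mul, hγ, mul_smul_comm, mul_one, smul_mul_assoc, one_mul]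
    have hinv : ∀ h ∈ θ.range, ∀ w ∈ W, h w ∈ W := by
      rintro _ ⟨g, rfl⟩ _ ⟨w, rfl⟩
      have hc : θ g * yb = yb * θ g := by
        rw [hyb, ← map_mul, ← map_mul]
        exact congrArg θ (Subtype.ext (hzc g g.2).eq.symm)
      exact ⟨_, (TwoE.map_dl hc w).symm⟩
    let r : P →* MulAut W := (TwoE.restr θ.range W hinv).comp θ.rangeRestrict
    intro hzmem
    have hcyc : IsCyclic r.range := by
      let Z := {w : W // w ≠ 1}
      let ι : MulAut W →* Equiv.Perm Z :=
        { toFun := fun a => (MulEquiv.toEquiv a).subtypeEquiv fun w => by simp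
          map_one' := by ext; rfl
          map_mul' := fun a b => by ext; rfl }
      have hι : Function.Injective ι := by
        intro a b hab
        refine MulEquiv.ext fun w => ?_
        rcases eq_or_ne w 1 with rfl | hw
        · rw [map_one, map_one]
        · exact congrArg Subtype.val (congrArg (fun σ : Equiv.Perm Z => σ ⟨w, hw⟩) hab)
      have hdvd : Nat.card r.range ∣ Nat.card (Equiv.Perm Z) :=
        (Subgroup.card_subgroup_dvd_card r.range).trans (Subgroup.card_dvd_of_injective ι hι)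
      have hZ : Nat.card Z ≤ 3 := by
        haveI : Fintype W := Fintype.ofFinite _
        haveI : Fintype Z := Fintype.ofFinite _
        rw [Nat.card_eq_fintype_card] at hcard4 ⊢
        have := Fintype.card_subtype_lt (p := fun w : W => w ≠ 1) (x := 1) (by simp)
        have h' : Fintype.card Z = Fintype.card {w : W // w ≠ 1} := Fintype.card_congr (Equiv.refl _)
        omega
      rw [Nat.card_perm] at hdvd
      have h6 : Nat.card r.range ∣ Nat.factorial 3 := hdvd.trans (Nat.factorial_dvd_factorial hZ)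
      obtain ⟨i, hi⟩ := (hP.of_surjective _ r.rangeRestrict_surjective).exists_card_eq
      refine isCyclic_of_card_dvd_prime (p := p) ?_
      rw [hi] at h6 ⊢
      rcases Nat.lt_or_ge i 2 with h | h
      · exact pow_dvd_pow p (by omega) |>.trans (dvd_of_eq (pow_one p))
      · have h9 := (pow_dvd_pow p h).trans h6
        rw [hp3] at h9
        exact absurd (Nat.le_of_dvd (by decide) h9) (by decide)
    have hker : commutator P ≤ r.ker := by
      rw [commutator_def, Subgroup.commutator_le]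
      intro a _ b _
      rw [MonoidHom.mem_ker, map_commutatorElement, commutatorElement_eq_one_iff_mul_comm]
      letI := hcyc.commGroup
      exact congrArg Subtype.val (mul_comm (⟨r a, a, rfl⟩ : r.range) ⟨r b, b, rfl⟩)
    obtain ⟨w, hw, hw1⟩ := (Subgroup.bot_or_exists_ne_one W).resolve_left hWne
    have hzr : r ⟨z, hzP⟩ = 1 := by
      rw [← Subgroup.map_subtype_commutator] at hzmem
      obtain ⟨z', hz', hzz⟩ := hzmem
      have : z' = ⟨z, hzP⟩ := Subtype.ext hzz
      exact this ▸ hker hz'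
    have hfix : w ∈ TwoE.fixd yb :=
      TwoE.mem_fixd.mpr (congrArg Subtype.val (congrArg (fun σ : MulAut W => σ ⟨w, hw⟩) hzr))
    apply hw1
    rw [← Subgroup.mem_bot, ← TwoE.fixd_inf_range hcop hybp]
    exact ⟨hfix, hw⟩

set_option maxHeartbeats 800000 in
/-- A block moved by `z` whose stabiliser does not have `z` in its derived subgroup. -/
theorem exists_block [IsAlgClosed k] [FiniteDimensional k V] {p : ℕ} [Fact p.Prime] [CharP k p]
    (hp3 : p = 3) (S P : Subgroup (Module.End k V)ˣ) [Finite S] [Finite P]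
    (hS : IsPGroup 2 S) (hP : IsPGroup p P)
    (hPS : P ≤ Subgroup.normalizer (S : Set (Module.End k V)ˣ)) (z : (Module.End k V)ˣ) (hzP : z ∈ P)
    (hzc : ∀ g ∈ P, Commute z g) (hzd : TwoE.Def (p ^ (0 + 1)) z) :
    ∀ (d : ℕ) (C : Submodule k V) (q : V →ₗ[k] C), finrank k C = d → (∀ v : C, q v = v) →
      (∀ g ∈ P, g ∈ TwoE.stab C ∨ ∀ v ∈ C, q ((g : Module.End k V) v) = 0) → z ∈ TwoE.stab C →
      (∃ s ∈ S, s ∈ TwoE.stab C ∧ ∃ v ∈ C, ((z * s : (Module.End k V)ˣ) : Module.End k V) v ≠
        ((s * z : (Module.End k V)ˣ) : Module.End k V) v) →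
      ∃ (C : Submodule k V) (q : V →ₗ[k] C), (∀ v : C, q v = v) ∧
        (∀ g ∈ P, g ∈ TwoE.stab C ∨ ∀ v ∈ C, q ((g : Module.End k V) v) = 0) ∧ z ∈ TwoE.stab C ∧
        (∃ u ∈ C, (z : Module.End k V) u ≠ u) ∧ z ∉ ⁅P ⊓ TwoE.stab C, P ⊓ TwoE.stab C⁆ := by
  classical
  have hp : p.Prime := Fact.out
  intro d
  induction d using Nat.strong_induction_on with
  | _ d ih =>
  intro C q hd hq hqg hzC hs
  obtain ⟨s, hsS, hsC, v, hv, hvne⟩ := hs
  haveI : Nontrivial C := by
    refine ⟨⟨⟨v, hv⟩, 0, fun h => hvne ?_⟩⟩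
    rw [show v = 0 from congrArg Subtype.val h, map_zero, map_zero]
  let S' := ((S ⊓ TwoE.stab C).subgroupOf (TwoE.stab C)).map (TwoE.restrHom C)
  let H := (P ⊓ TwoE.stab C).subgroupOf (TwoE.stab C)
  let P' := H.map (TwoE.restrHom C)
  haveI : Finite ↥(S ⊓ TwoE.stab C) := Finite.of_injective _ (Subgroup.inclusion_injective inf_le_left)
  haveI : Finite ↥(P ⊓ TwoE.stab C) := Finite.of_injective _ (Subgroup.inclusion_injective inf_le_left)
  haveI : Finite ↥((S ⊓ TwoE.stab C).subgroupOf (TwoE.stab C)) :=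
    Finite.of_equiv _ (Subgroup.subgroupOfEquivOfLe inf_le_right).toEquiv.symm
  haveI : Finite ↥H := Finite.of_equiv _ (Subgroup.subgroupOfEquivOfLe inf_le_right).toEquiv.symm
  haveI : Finite S' := Finite.of_surjective _ (MonoidHom.subgroupMap_surjective _ _)
  haveI : Finite P' := Finite.of_surjective _ (MonoidHom.subgroupMap_surjective _ _)
  have hS' : IsPGroup 2 S' := ((hS.to_le inf_le_left).comap_of_injective _
    (TwoE.stab C).subtype_injective).map _
  have hP' : IsPGroup p P' := ((hP.to_le inf_le_left).comap_of_injective _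
    (TwoE.stab C).subtype_injective).map _
  have hPS' : P' ≤ Subgroup.normalizer (S' : Set _) := by
    refine Subgroup.le_normalizer_iff.mpr ?_
    rintro _ ⟨g, hg, rfl⟩ _ ⟨u, hu, rfl⟩
    refine ⟨g * u * g⁻¹, ⟨(Subgroup.mem_normalizer_iff.mp (hPS hg.1) _).mp hu.1, ?_⟩, by simp⟩
    exact (g * u * g⁻¹).2
  have hzH : (⟨z, hzC⟩ : TwoE.stab C) ∈ H := ⟨hzP, hzC⟩
  have hzd' : TwoE.Def (p ^ (0 + 1)) (TwoE.restrHom C ⟨z, hzC⟩) := by
    refine LinearMap.ext fun w => Subtype.ext ?_
    have h := congrArg (fun F : Module.End k V => F w) hzd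
    simp only [LinearMap.sum_apply, LinearMap.zero_apply] at h
    rw [LinearMap.sum_apply, Submodule.coe_sum, LinearMap.zero_apply, Submodule.coe_zero, ← h]
    refine Finset.sum_congr rfl fun i _ => ?_
    rw [← Units.val_pow_eq_pow_val, ← map_pow, TwoE.restrHom_apply, ← Units.val_pow_eq_pow_val]
    rfl
  have hne' : ∃ s' ∈ S', ¬ Commute s' (TwoE.restrHom C ⟨z, hzC⟩) := by
    refine ⟨_, ⟨⟨s, hsC⟩, ⟨hsS, hsC⟩, rfl⟩, fun h => hvne ?_⟩
    exact (congrArg (fun g : (Module.End k C)ˣ => (((g : Module.End k C) ⟨v, hv⟩ : C) : V)) h.eq).symm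
  rcases quad_step hp3 S' P' hS' hP' hPS' _ ⟨_, hzH, rfl⟩ (fun g hg => by
      obtain ⟨g, hg, rfl⟩ := hg
      exact (show Commute (⟨z, hzC⟩ : TwoE.stab C) g from Subtype.ext (hzc _ hg.1).eq).map _)
      hzd' hne' with h | ⟨E, qE, hlt, hqE, hgE, hzE, s', hs', hsE, w, hw, hwne⟩
  · refine ⟨C, q, hq, hqg, hzC, ?_, fun hmem => h ?_⟩
    · by_contra hcon
      push Not at hcon
      apply hvne
      rw [Units.val_mul, Units.val_mul, Module.End.mul_apply, Module.End.mul_apply,
        hcon _ ((hsC v).mpr hv), hcon v hv]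
    · rw [← Subgroup.map_commutator]
      rw [← Subgroup.map_subgroupOf_eq_of_le (inf_le_right : P ⊓ TwoE.stab C ≤ TwoE.stab C),
        ← Subgroup.map_commutator] at hmem
      obtain ⟨z', hz', hzz⟩ := hmem
      exact ⟨z', hz', congrArg _ (Subtype.ext hzz)⟩
  · let e := Submodule.equivMapOfInjective C.subtype C.subtype_injective E
    have hmap : ∀ (g : TwoE.stab C), TwoE.restrHom C g ∈ TwoE.stab E →
        ∀ w ∈ E.map C.subtype, ((g : (Module.End k V)ˣ) : Module.End k V) w ∈ E.map C.subtype := by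
      rintro g hg _ ⟨w, hw, rfl⟩
      exact ⟨_, (hg w).mpr hw, TwoE.restrHom_apply C g w⟩
    refine ih (finrank k E) (hd ▸ hlt) (E.map C.subtype) ((e.toLinearMap.comp qE).comp q)
      (e.finrank_eq.symm) ?_ ?_ ?_ ?_
    · rintro ⟨_, w, hw, rfl⟩
      show e (qE (q (w : V))) = _
      rw [hq w, hqE ⟨w, hw⟩]
      rfl
    · intro g hg
      rcases hqg g hg with hgC | hkill
      · rcases hgE _ ⟨⟨g, hgC⟩, ⟨hg, hgC⟩, rfl⟩ with h | h
        · left
          obtain ⟨n, hn, hgn⟩ : ∃ n, 0 < n ∧ g ^ n = 1 :=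
            ⟨Nat.card P, Nat.card_pos, congrArg Subtype.val (pow_card_eq_one' (x := (⟨g, hg⟩ : P)))⟩
          exact mem_stab_of_mapsTo hn hgn (hmap ⟨g, hgC⟩ h)
        · right
          rintro _ ⟨w, hw, rfl⟩
          show e (qE (q ((g : Module.End k V) (w : V)))) = 0
          rw [← TwoE.restrHom_apply C ⟨g, hgC⟩ w, hq, h w hw, map_zero]
      · right
        rintro _ ⟨w, hw, rfl⟩
        show e (qE (q ((g : Module.End k V) (w : V)))) = 0
        rw [hkill _ w.2, map_zero, map_zero]
    · exact mem_stab_of_mapsTo (pow_pos hp.pos (0 + 1)) hzd.pow_eq_one (hmap ⟨z, hzC⟩ hzE)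
    · obtain ⟨⟨s'', hs''C⟩, hs'', rfl⟩ := hs'
      refine ⟨s'', hs''.1, mem_stab_of_mapsTo (n := Nat.card S) Nat.card_pos
        (congrArg Subtype.val (pow_card_eq_one' (x := (⟨s'', hs''.1⟩ : S)))) (hmap _ hsE),
        (w : V), ⟨w, hw, rfl⟩, fun h => hwne (Subtype.ext ?_)⟩
      exact h

/-- The operator `(t_{j-1} - 1) ⋯ (t_0 - 1)`. -/
def opProd {R : Type*} [Ring R] (f : ℕ → R) : ℕ → R
  | 0 => 1
  | j + 1 => (f j - 1) * opProd f j

theorem map_opProd {R R' F : Type*} [Ring R] [Ring R'] [FunLike F R R'] [RingHomClass F R R']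
    (φ : F) (f : ℕ → R) (j : ℕ) : φ (opProd f j) = opProd (fun i => φ (f i)) j := by
  induction j with
  | zero => exact map_one φ
  | succ j ih =>
    show φ ((f j - 1) * opProd f j) = _
    rw [map_mul, map_sub, map_one, ih]; rfl

/-- The chain operator is nonzero. -/
theorem exists_chain {p : ℕ} [Fact p.Prime] {T : Type u} [Group T] [Finite T] (hTp : IsPGroup p T)
    (ρ : T →* (Module.End k V)ˣ) (C : Submodule k V) (q : V →ₗ[k] C) (hq : ∀ v : C, q v = v)
    (H : Subgroup T) (hout : ∀ g ∉ H, ∀ v ∈ C, q ((ρ g : Module.End k V) v) = 0) (z : T) (hzH : z ∈ H)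
    (hzC : ∀ v ∈ C, (ρ z : Module.End k V) v ∈ C) {d : ℕ} (hzd : z ∈ derivedSeries T d)
    (hzH' : z ∉ ⁅H, H⁆) {u : V} (hu : u ∈ C) (hzu : (ρ z : Module.End k V) u ≠ u) :
    ∃ t : ℕ → T, (∀ j < d, t j ∈ derivedSeries T j) ∧
      ((ρ z : Module.End k V) - 1) * opProd (fun i => (ρ (t i) : Module.End k V)) d ≠ 0 := by
  classical
  have hchoose : ∀ j, j < d → ∃ t, t ∈ derivedSeries T j ∧ t ∉ derivedSeries T (j + 1) ⊔ H := by
    intro j hj
    by_contra hcon
    push Not at hcon
    set D := derivedSeries T j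
    have hle : D ≤ derivedSeries T (j + 1) ⊔ H := hcon
    have hDH : D ≤ H := by
      have hD1 : derivedSeries T (j + 1) = (commutator D).map D.subtype := by
        rw [derivedSeries_succ, Subgroup.map_subtype_commutator]
      haveI : (derivedSeries T (j + 1)).Normal := derivedSeries_normal T (j + 1)
      have hK : H.subgroupOf D ⊔ frattini D = ⊤ := by
        rw [eq_top_iff]
        rintro ⟨x, hx⟩ -
        obtain ⟨a, ha, b, hb, hab⟩ := Subgroup.mem_sup_of_normal_left.mp (hle hx)
        rw [hD1] at ha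
        obtain ⟨a', ha', rfl⟩ := ha
        have hbD : b ∈ D := by
          have : b = (a' : T)⁻¹ * x := by rw [← hab, Subgroup.coe_subtype, inv_mul_cancel_left]
          rw [this]; exact mul_mem (inv_mem a'.2) hx
        have e : (⟨x, hx⟩ : D) = a' * ⟨b, hbD⟩ := Subtype.ext hab.symm
        rw [e]
        exact mul_mem (Subgroup.mem_sup_right ((H19.commutator_pow_mem_frattini (hTp.to_subgroup D)).1 ha'))
          (Subgroup.mem_sup_left (Subgroup.mem_subgroupOf.mpr hb))
      exact Subgroup.subgroupOf_eq_top.mp (frattini_nongenerating hK)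
    apply hzH'
    have h1 : z ∈ derivedSeries T (j + 1) := derivedSeries_antitone T (by omega : j + 1 ≤ d) hzd
    rw [derivedSeries_succ] at h1
    exact Subgroup.commutator_mono hDH hDH h1
  let t : ℕ → T := fun j => if h : j < d then (hchoose j h).choose else 1
  have ht : ∀ j, j < d → t j ∈ derivedSeries T j ∧ t j ∉ derivedSeries T (j + 1) ⊔ H := fun j hj => by
    simp only [t, dif_pos hj]
    exact (hchoose j hj).choose_spec
  refine ⟨t, fun j hj => (ht j hj).1, ?_⟩
  let U : ℕ → Submodule k V := fun j =>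
    ⨆ g ∈ {g : T | g ∉ derivedSeries T j ⊔ H}, C.map (ρ g : Module.End k V)
  have hstep : ∀ j, j ≤ d → ∃ ε : k, ε ≠ 0 ∧
      opProd (fun i => (ρ (t i) : Module.End k V)) j u - ε • u ∈ U j := by
    intro j hj
    induction j with
    | zero => exact ⟨1, one_ne_zero, by rw [one_smul]; simp [opProd]⟩
    | succ j ih =>
      obtain ⟨ε, hε, hmem⟩ := ih (by omega)
      obtain ⟨htD, htn⟩ := ht j (by omega)
      have hUU : U j ≤ U (j + 1) :=
        iSup₂_le fun g hg => le_iSup₂ (f := fun g (_ : g ∈ {g : T | g ∉ derivedSeries T (j + 1) ⊔ H}) =>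
          C.map (ρ g : Module.End k V)) g fun h =>
            hg (sup_le_sup_right (derivedSeries_antitone T (Nat.le_succ j)) H h)
      have htU : ∀ y ∈ U j, (ρ (t j) : Module.End k V) y ∈ U (j + 1) := by
        suffices h : U j ≤ (U (j + 1)).comap (ρ (t j) : Module.End k V) from fun y hy => h hy
        refine iSup₂_le fun g hg => ?_
        rintro _ ⟨c, hc, rfl⟩
        refine Submodule.mem_iSup_of_mem (t j * g) (Submodule.mem_iSup_of_mem ?_ ⟨c, hc, ?_⟩)
        · intro h
          apply hg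
          have h1 := sup_le_sup_right (derivedSeries_antitone T (Nat.le_succ j)) H h
          have h2 := mul_mem (inv_mem (Subgroup.mem_sup_left (T := H) htD)) h1
          rwa [inv_mul_cancel_left] at h2
        · rw [map_mul, Units.val_mul]; rfl
      refine ⟨-ε, neg_ne_zero.mpr hε, ?_⟩
      have e : opProd (fun i => (ρ (t i) : Module.End k V)) (j + 1) u - (-ε) • u =
          ((ρ (t j) : Module.End k V) (opProd (fun i => (ρ (t i) : Module.End k V)) j u - ε • u) +
            ε • (ρ (t j) : Module.End k V) u) -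
          (opProd (fun i => (ρ (t i) : Module.End k V)) j u - ε • u) := by
        show ((ρ (t j) : Module.End k V) - 1) (opProd (fun i => (ρ (t i) : Module.End k V)) j u) - _ = _
        rw [LinearMap.sub_apply, Module.End.one_apply, map_sub, map_smul, sub_add_cancel, neg_smul]
        abel
      rw [e]
      refine sub_mem (add_mem (htU _ hmem) (Submodule.smul_mem _ _ ?_)) (hUU hmem)
      exact Submodule.mem_iSup_of_mem (t j) (Submodule.mem_iSup_of_mem htn ⟨u, hu, rfl⟩)
  obtain ⟨ε, hε, hmem⟩ := hstep d le_rfl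
  intro hzero
  have hqU : ∀ y ∈ U d, q ((ρ z : Module.End k V) y - y) = 0 := by
    suffices h : U d ≤ LinearMap.ker (q.comp ((ρ z : Module.End k V) - 1)) from fun y hy => h hy
    refine iSup₂_le fun g hg => ?_
    rintro _ ⟨c, hc, rfl⟩
    show q (((ρ z : Module.End k V) - 1) ((ρ g : Module.End k V) c)) = 0
    rw [LinearMap.sub_apply, Module.End.one_apply, map_sub, ← Module.End.mul_apply, ← Units.val_mul,
      ← map_mul, hout g (fun h => hg (Subgroup.mem_sup_right h)) c hc,
      hout (z * g) (fun h => hg (Subgroup.mem_sup_right (by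
        have := mul_mem (inv_mem hzH) h
        rwa [inv_mul_cancel_left] at this))) c hc, sub_zero]
  have h := hqU _ hmem
  have h0 := congrArg (fun F : Module.End k V => F u) hzero
  simp only [Module.End.mul_apply, LinearMap.sub_apply, Module.End.one_apply, LinearMap.zero_apply] at h0
  set y := opProd (fun i => (ρ (t i) : Module.End k V)) d u
  have e : (ρ z : Module.End k V) (y - ε • u) - (y - ε • u) = -(ε • ((ρ z : Module.End k V) u - u)) := by
    rw [map_sub, map_smul, smul_sub]
    rw [sub_eq_zero] at h0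
    rw [h0]; abel
  rw [e, map_neg, neg_eq_zero, map_smul, smul_eq_zero] at h
  have h1 := h.resolve_left hε
  rw [map_sub, sub_eq_zero, show u = ((⟨u, hu⟩ : C) : V) from rfl, hq,
    show (ρ z : Module.End k V) u = ((⟨_, hzC u hu⟩ : C) : V) from rfl, hq] at h1
  exact hzu (congrArg Subtype.val h1)

end linear

section group

variable {X : Type u} [Group X] [Finite X] {p : ℕ} [Fact p.Prime]

set_option maxHeartbeats 1600000 in
/-- The derived length of the Sylow subgroup drops modulo `O_p`. -/
theorem derived_drop (hp2 : p ≠ 2) (hsol : Cfsg.IsPSolvable p X) (hpp : Cfsg.pPrimeCore p X = ⊥)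
    [(Cfsg.pCore p X).Normal] (P : Sylow p X) {d : ℕ}
    (hd : derivedSeries ↥(P : Subgroup X) (d + 1) = ⊥) :
    derivedSeries ↥((P : Subgroup X).map (QuotientGroup.mk' (Cfsg.pCore p X))) d = ⊥ := by
  classical
  have hp : p.Prime := Fact.out
  set O := Cfsg.pCore p X
  set qO := QuotientGroup.mk' O
  let θ : ↥(P : Subgroup X) →* ↥((P : Subgroup X).map qO) := qO.subgroupMap (P : Subgroup X)
  have hθ : Function.Surjective θ := MonoidHom.subgroupMap_surjective _ _
  by_contra hne
  have hmapD : ∀ j, (derivedSeries ↥(P : Subgroup X) j).map θ =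
      derivedSeries ↥((P : Subgroup X).map qO) j := fun j => map_derivedSeries_eq hθ j
  have hTp : IsPGroup p ↥((P : Subgroup X).map qO) := P.2.map qO
  haveI : Group.IsNilpotent ↥((P : Subgroup X).map qO) := hTp.isNilpotent
  haveI : (derivedSeries ↥((P : Subgroup X).map qO) d).Normal := derivedSeries_normal _ d
  set I := derivedSeries ↥((P : Subgroup X).map qO) d ⊓ Subgroup.center _
  obtain ⟨⟨z, hzI⟩, hzord⟩ : ∃ z : I, orderOf z = p := by
    refine exists_prime_orderOf_dvd_card' p ?_
    obtain ⟨i, hi⟩ := (hTp.to_subgroup I).exists_card_eq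
    rcases Nat.eq_zero_or_pos i with rfl | hi0
    · exact absurd (Subgroup.eq_bot_of_card_eq I (by rw [hi, pow_zero]))
        (H19.inf_center_ne_bot _ hne)
    · rw [hi]; exact dvd_pow_self p hi0.ne'
  rw [Subgroup.orderOf_mk] at hzord
  obtain ⟨a, haD, haz⟩ : ∃ a ∈ derivedSeries ↥(P : Subgroup X) d, θ a = z := by
    have := hzI.1
    rw [← hmapD] at this
    exact this
  set zL : X ⧸ O := (z : X ⧸ O) with hzL
  have hzLa : qO (a : X) = zL := by rw [hzL, ← haz]; rfl
  have hzL1 : zL ≠ 1 := fun h => by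
    have h1 : orderOf z = 1 := by rw [← Subgroup.orderOf_coe, ← hzL, h, orderOf_one]
    rw [hzord] at h1
    exact hp.ne_one h1
  have hzLp : zL ^ p = 1 := by
    have h1 := pow_orderOf_eq_one z
    rw [hzord] at h1
    rw [hzL, ← Subgroup.coe_pow, h1]; rfl
  have hzcent : ∀ g ∈ (P : Subgroup X).map qO, Commute zL g := fun g hg =>
    (congrArg Subtype.val (Subgroup.mem_center_iff.mp hzI.2 ⟨g, hg⟩)).symm
  have hOP : O ≤ (P : Subgroup X) := H19.pCore_le_sylow _
  refine TwoE.with_frattAct hsol hpp (C := False) fun M _ _ _ φ hφ π hπ hφπ => ?_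
  haveI : Module.Finite (ZMod p) (Additive M) := Module.Finite.of_finite
  haveI : (derivedSeries ↥(P : Subgroup X) d).Normal := derivedSeries_normal _ d
  have hlast : ∀ b ∈ derivedSeries ↥(P : Subgroup X) d, ∀ c ∈ derivedSeries ↥(P : Subgroup X) d,
      ⁅b, c⁆ = 1 := by
    intro b hb c hc
    have : ⁅b, c⁆ ∈ derivedSeries ↥(P : Subgroup X) (d + 1) := by
      rw [derivedSeries_succ]; exact Subgroup.commutator_mem_commutator hb hc
    rwa [hd, Subgroup.mem_bot] at this
  -- the action of lifts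
  have hstepM : ∀ (b : ↥(P : Subgroup X)) (o : O), ∃ o' : O, (o' : X) = ((⁅b, ⟨o, hOP o.2⟩⁆ : ↥(P : Subgroup X)) : X) ∧
      (HH.toEnd (p := p) φ (qO (b : X)) - 1) (Additive.ofMul (π o)) = Additive.ofMul (π o') := by
    intro b o
    refine ⟨MulAut.conjNormal (b : X) o / o, ?_, ?_⟩
    · rw [div_eq_mul_inv, Subgroup.coe_mul, Subgroup.coe_inv, MulAut.conjNormal_apply]
      simp [commutatorElement_def]
    · rw [LinearMap.sub_apply, Module.End.one_apply, map_div, ofMul_div]
      exact congrArg (· - Additive.ofMul (π o)) (congrArg Additive.ofMul (hφπ (b : X) o))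
  set A := HH.toEnd (p := p) φ zL with hA
  have hquad : (A - 1) * (A - 1) = 0 := by
    refine LinearMap.ext fun v => ?_
    obtain ⟨v, rfl⟩ := Additive.ofMul.surjective v
    obtain ⟨o, rfl⟩ := hπ v
    obtain ⟨o₁, ho₁, h1⟩ := hstepM a o
    obtain ⟨o₂, ho₂, h2⟩ := hstepM a o₁
    rw [Module.End.mul_apply, LinearMap.zero_apply, hA, ← hzLa, h1, h2]
    have hmem : (⟨o₁, hOP o₁.2⟩ : ↥(P : Subgroup X)) ∈ derivedSeries ↥(P : Subgroup X) d := by
      rw [show (⟨o₁, hOP o₁.2⟩ : ↥(P : Subgroup X)) = ⁅a, ⟨o, hOP o.2⟩⁆ from Subtype.ext ho₁,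
        commutatorElement_def, mul_assoc, mul_assoc, ← mul_assoc (⟨o, _⟩ : ↥(P : Subgroup X))]
      exact mul_mem haD (Subgroup.Normal.conj_mem inferInstance _ (inv_mem haD) _)
    have : o₂ = 1 := Subtype.ext (by rw [ho₂, hlast a haD _ hmem]; rfl)
    rw [this, map_one, ofMul_one]
  let k := AlgebraicClosure (ZMod p)
  haveI : CharP k p := charP_of_injective_algebraMap (algebraMap (ZMod p) k).injective p
  let ρ := TwoE.repU (p := p) φ
  have hinj : Function.Injective ρ := by
    rw [injective_iff_map_eq_one]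
    intro l hl
    exact hφ l (HH.eq_one_of_repK_eq_one φ
      (by rw [← TwoE.coe_repU (p := p), show TwoE.repU (p := p) φ l = 1 from hl]; rfl))
  have hs2 : ((ρ zL : Module.End k (TensorProduct (ZMod p) k (Additive M))) - 1) ^ 2 = 0 := by
    have h := congrArg (Module.End.baseChangeHom (ZMod p) k (Additive M)) hquad
    simp only [map_mul, map_sub, map_one, map_zero] at h
    rw [sq, TwoE.coe_repU]; exact h
  have hdef : TwoE.Def (p ^ (0 + 1)) (ρ zL) := by
    show ∑ i ∈ Finset.range (p ^ (0 + 1)), _ = _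
    refine (TB.sub_one_pow_pred (k := k) (R := Module.End k (TensorProduct (ZMod p) k (Additive M))) p _
      (0 + 1)).symm.trans ?_
    have := hp.two_le
    exact pow_eq_zero_of_le (by rw [zero_add, pow_one]; omega) hs2
  -- the invariant Sylow subgroups
  haveI := H44.pPrimeCore_normal' (G := X ⧸ O) p
  set N := Cfsg.pPrimeCore p (X ⧸ O)
  have hsolL := H84.isPSolvable_of_surjective _ (QuotientGroup.mk'_surjective O) hsol
  let T := (P : Subgroup X).map qO
  have hTN : T ≤ Subgroup.normalizer (N : Set (X ⧸ O)) := by rw [Subgroup.normalizer_eq_top]; exact le_top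
  have hNcop : (Nat.card N).Coprime p := H19.pPrimeCore_coprime p
  have hcop : (Nat.card T).Coprime (Nat.card N) := by
    obtain ⟨i, hi⟩ := hTp.exists_card_eq
    rw [hi]; exact hNcop.symm.pow_left i
  obtain ⟨S, hTS, hSq, hp3, s, hs, hsz⟩ : ∃ S : Subgroup (X ⧸ O), T ≤ Subgroup.normalizer (S : Set (X ⧸ O)) ∧
      IsPGroup 2 S ∧ p = 3 ∧ ∃ s ∈ S, ¬ Commute s zL := by
    by_contra hcon
    push Not at hcon
    apply hzL1
    have hzN : zL ∈ Subgroup.centralizer (N : Set (X ⧸ O)) := by
      set C := N ⊓ Subgroup.centralizer ({zL} : Set (X ⧸ O))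
      suffices h : Nat.card N ∣ Nat.card C by
        rw [Subgroup.mem_centralizer_iff]
        intro b hb
        have h' := (Subgroup.eq_of_le_of_card_ge (inf_le_left : C ≤ N)
          (Nat.le_of_dvd Nat.card_pos h)).symm.le hb
        exact Subgroup.mem_centralizer_singleton_iff.mp h'.2
      rw [← Nat.factorization_le_iff_dvd Nat.card_pos.ne' Nat.card_pos.ne']
      intro q
      by_cases hqd : q.Prime ∧ q ∣ Nat.card N
      swap
      · rw [not_and] at hqd
        by_cases hq : q.Prime
        · rw [Nat.factorization_eq_zero_of_not_dvd (hqd hq)]; exact Nat.zero_le _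
        · rw [Nat.factorization_eq_zero_of_not_prime _ hq]; exact Nat.zero_le _
      obtain ⟨hq, hqN⟩ := hqd
      haveI := Fact.mk hq
      obtain ⟨S, hSN, hTS, hSq, hScard⟩ :=
        exists_invariant_sylow_subgroup hTN hcop (Or.inl inferInstance) q
      have hqp : q ≠ p := by
        rintro rfl
        exact hq.ne_one (Nat.eq_one_of_dvd_coprimes hNcop hqN dvd_rfl)
      suffices hSC : S ≤ C by
        have h := Subgroup.card_dvd_of_le hSC
        rw [hScard] at h
        exact (hq.pow_dvd_iff_le_factorization Nat.card_pos.ne').mp h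
      refine le_inf hSN fun s hs => Subgroup.mem_centralizer_singleton_iff.mpr ?_
      by_contra hns
      by_cases hex : q = 2 ∧ p = 3
      · obtain ⟨rfl, h3⟩ := hex
        exact hns (hcon S hTS hSq h3 s hs).eq
      have hne' : ¬ S ≤ Subgroup.centralizer ({zL} : Set _) := fun h =>
        hns (Subgroup.mem_centralizer_singleton_iff.mp (h hs))
      have hScop : (Nat.card S).Coprime p := hNcop.coprime_dvd_left (Subgroup.card_dvd_of_le hSN)
      obtain ⟨q', Q, F, hq', hq'p, hQS, hlQ, hd', v, hv⟩ := TB.exists_data (n := 1) (x := zL)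
        (hTS z.2) hScop (by rw [pow_one]; exact hzLp) (Subgroup.mem_zpowers zL) hne'
      haveI := Fact.mk hq'
      rcases TB.main (k := k) hq'p hd' 1 Nat.one_pos zL hlQ (by rw [pow_one]; exact hzLp)
          (by rw [Nat.sub_self, pow_zero, pow_one]) (ρ.comp Q.subtype) (ρ zL)
          (fun b => by
            show ρ zL * ρ b = ρ (zL * b * zL⁻¹) * ρ zL
            rw [← map_mul, ← map_mul, inv_mul_cancel_right])
          ⟨v, fun h => hv (Subtype.ext (hinj (h.trans (map_one ρ).symm)))⟩ _ hs2 with h | h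
      · rw [pow_one] at h
        have := hp.two_le
        omega
      obtain ⟨j, D, hj, hD, hD1, hDQ, -, hle⟩ := h
      obtain rfl : j = 0 := by omega
      rw [Nat.sub_zero, pow_one] at hD
      rw [pow_zero, one_mul] at hle
      obtain rfl : D = 2 := by omega
      obtain ⟨i, hi⟩ := (hSq.to_le hQS).exists_card_eq
      have h2q : 2 ∣ q ^ i := (dvd_mul_right 2 2).trans (hi ▸ hDQ)
      exact hex ⟨((Nat.prime_dvd_prime_iff_eq Nat.prime_two hq).mp (Nat.prime_two.dvd_of_dvd_pow h2q)).symm,
        by omega⟩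
    have hzN' : zL ∈ N := H44.centralizer_pPrimeCore_le hsolL (H19.pCore_quotient_pCore p) hzN
    exact orderOf_eq_one_iff.mp (Nat.eq_one_of_dvd_coprimes hNcop
      (Subgroup.orderOf_dvd_natCard _ hzN') (orderOf_dvd_of_pow_eq_one hzLp))
  haveI : Finite ↥(S.map ρ) := Finite.of_surjective _ (MonoidHom.subgroupMap_surjective ρ S)
  haveI : Finite ↥(T.map ρ) := Finite.of_surjective _ (MonoidHom.subgroupMap_surjective ρ T)
  have hne0 : ∃ v, ((ρ zL * ρ s : (Module.End k _)ˣ) : Module.End k (TensorProduct (ZMod p) k (Additive M))) v ≠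
      ((ρ s * ρ zL : (Module.End k _)ˣ) : Module.End k (TensorProduct (ZMod p) k (Additive M))) v := by
    by_contra hcon
    push Not at hcon
    refine hsz (hinj ?_)
    rw [map_mul, map_mul]
    exact (Units.ext (LinearMap.ext hcon)).symm
  obtain ⟨v, hv⟩ := hne0
  obtain ⟨C, q, hq, hqg, hzC, ⟨w, hw, hzw⟩, hzH⟩ := exists_block hp3 (S.map ρ) (T.map ρ) (hSq.map ρ)
    (hTp.map ρ) (by
      refine Subgroup.le_normalizer_iff.mpr ?_
      rintro _ ⟨g, hg, rfl⟩ _ ⟨b, hb, rfl⟩
      exact ⟨g * b * g⁻¹, (Subgroup.mem_normalizer_iff.mp (hTS hg) _).mp hb, by simp⟩)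
    (ρ zL) ⟨zL, z.2, rfl⟩ (by rintro _ ⟨g, hg, rfl⟩; exact (hzcent g hg).map ρ) hdef _ ⊤
    (Submodule.topEquiv.symm.toLinearMap) rfl (fun _ => rfl) (fun g _ => Or.inl fun _ => by simp)
    (fun _ => by simp) ⟨ρ s, ⟨s, hs, rfl⟩, fun _ => by simp, v, trivial, hv⟩
  let ρT := ρ.comp T.subtype
  let H : Subgroup T := (TwoE.stab C).comap ρT
  have hzH' : z ∉ ⁅H, H⁆ := by
    intro hmem
    apply hzH
    have h1 : ρT z ∈ ⁅H.map ρT, H.map ρT⁆ := by
      rw [← Subgroup.map_commutator]; exact Subgroup.mem_map_of_mem _ hmem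
    have h2 : H.map ρT ≤ T.map ρ ⊓ TwoE.stab C := by
      rintro _ ⟨g, hg, rfl⟩
      exact ⟨⟨g, g.2, rfl⟩, hg⟩
    exact Subgroup.commutator_mono h2 h2 h1
  obtain ⟨t, htD, hne2⟩ := exists_chain hTp ρT C q hq H (fun g hg v hv => by
      rcases hqg (ρT g) ⟨g, g.2, rfl⟩ with h | h
      · exact absurd h hg
      · exact h v hv) z (show ρT z ∈ TwoE.stab C from hzC) (fun v hv => (hzC v).mpr hv)
    (d := d) hzI.1 hzH' hw hzw
  -- the operator vanishes
  apply hne2
  choose b hbD hbt using fun j (hj : j < d) => (show t j ∈ (derivedSeries ↥(P : Subgroup X) j).map θ by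
    rw [hmapD]; exact htD j hj)
  set f : ℕ → Module.End (ZMod p) (Additive M) := fun i => HH.toEnd (p := p) φ ((t i : T) : X ⧸ O)
  have hM : ∀ j, j ≤ d → ∀ o : O, ∃ o' : O,
      (⟨o', hOP o'.2⟩ : ↥(P : Subgroup X)) ∈ derivedSeries ↥(P : Subgroup X) j ∧
      opProd f j (Additive.ofMul (π o)) = Additive.ofMul (π o') := by
    intro j hj
    induction j with
    | zero => intro o; exact ⟨o, by rw [derivedSeries_zero]; trivial, rfl⟩
    | succ j ih =>
      intro o
      obtain ⟨o', ho', h1⟩ := ih (by omega) o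
      obtain ⟨o'', ho'', h2⟩ := hstepM (b j (by omega)) o'
      refine ⟨o'', ?_, ?_⟩
      · rw [show (⟨o'', hOP o''.2⟩ : ↥(P : Subgroup X)) = ⁅b j (by omega), ⟨o', hOP o'.2⟩⁆ from Subtype.ext ho'',
          derivedSeries_succ]
        exact Subgroup.commutator_mem_commutator (hbD j _) ho'
      · show (f j - 1) (opProd f j (Additive.ofMul (π o))) = _
        rw [h1, ← h2]
        have e : ((t j : T) : X ⧸ O) = qO (b j (by omega) : X) := by rw [← hbt j (by omega)]; rfl
        simp only [f, e]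
  have hzero : (A - 1) * opProd f d = 0 := by
    refine LinearMap.ext fun v => ?_
    obtain ⟨v, rfl⟩ := Additive.ofMul.surjective v
    obtain ⟨o, rfl⟩ := hπ v
    obtain ⟨o', ho', h1⟩ := hM d le_rfl o
    obtain ⟨o'', ho'', h2⟩ := hstepM a o'
    rw [Module.End.mul_apply, h1, hA, ← hzLa, h2, LinearMap.zero_apply]
    have : o'' = 1 := Subtype.ext (by rw [ho'', hlast a haD _ ho']; rfl)
    rw [this, map_one, ofMul_one]
  have h := congrArg (Module.End.baseChangeHom (ZMod p) k (Additive M)) hzero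
  simp only [map_mul, map_sub, map_one, map_zero, map_opProd] at h
  simp only [ρT, MonoidHom.comp_apply, Subgroup.coe_subtype, ← hzL, ρ, TwoE.coe_repU]
  exact h

/-- `p`-length at most the derived length of a Sylow `p`-subgroup, `p` odd. -/
theorem pLengthLE_of_derived (hp2 : p ≠ 2) : ∀ (d : ℕ) {G : Type u} [Group G] [Finite G],
    Cfsg.IsPSolvable p G → (∀ P : Sylow p G, derivedSeries ↥(P : Subgroup G) d = ⊥) →
    Cfsg.PLengthLE p d G := by
  intro d
  induction d with
  | zero =>
    intro G _ _ _ hd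
    refine PLen.pLengthLE_zero_of_coprime ?_
    obtain ⟨P⟩ : Nonempty (Sylow p G) := inferInstance
    have hbot : (P : Subgroup G) = ⊥ := (Subgroup.eq_bot_iff_forall _).mpr fun x hx => by
      have h : (⟨x, hx⟩ : ↥(P : Subgroup G)) ∈ derivedSeries ↥(P : Subgroup G) 0 := by
        rw [derivedSeries_zero]; trivial
      rw [hd P, Subgroup.mem_bot] at h
      exact congrArg Subtype.val h
    rw [Nat.coprime_comm, (Fact.out : p.Prime).coprime_iff_not_dvd]
    exact fun h => P.ne_bot_of_dvd_card h hbot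
  | succ d ih =>
    intro G _ _ hsol hd
    haveI := H19.pPrimeCore_normal p G
    haveI := H19.pCore_normal p (G ⧸ Cfsg.pPrimeCore p G)
    apply TwoE.pLengthLE_succ
    have hf := QuotientGroup.mk'_surjective (Cfsg.pPrimeCore p G)
    have hsol1 := H84.isPSolvable_of_surjective _ hf hsol
    refine ih (H84.isPSolvable_of_surjective _ (QuotientGroup.mk'_surjective _) hsol1) fun T => ?_
    obtain ⟨PX, rfl⟩ := Sylow.mapSurjective_surjective (QuotientGroup.mk'_surjective _) p T
    obtain ⟨P, rfl⟩ := Sylow.mapSurjective_surjective hf p PX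
    refine derived_drop hp2 hsol1 (H19.pPrimeCore_quotient_pPrimeCore p) (P.mapSurjective hf) ?_
    show derivedSeries ↥((P : Subgroup G).map (QuotientGroup.mk' (Cfsg.pPrimeCore p G))) (d + 1) = ⊥
    rw [← map_derivedSeries_eq (MonoidHom.subgroupMap_surjective _ (P : Subgroup G)) (d + 1), hd P,
      Subgroup.map_bot]

end group

end Cfsg.Agent.H20.DLen
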