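import Cfsg.Agent.H20.Sylow
import Cfsg.Agent.H20.Abelian
import Mathlib.GroupTheory.IndexNormal
import Mathlib.GroupTheory.SpecificGroups.Cyclic

/-! Coprime action whose fixed points have prime index. -/

set_option autoImplicit false
open scoped Pointwise commutatorElement

namespace Cfsg.Agent.H20

variable {G : Type*} [Group G] [Finite G]

/-- If `C_K(A)` has prime index `p` in `K` then `[K, A]` has order `p`. -/
theorem card_commutator_of_relIndex_prime {A K : Subgroup G}
    (hAK : A ≤ Subgroup.normalizer (K : Set G))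
    (hcop : (Nat.card A).Coprime (Nat.card K))
    (hsolv : Group.IsSolvable A ∨ Group.IsSolvable K) {p : ℕ} (hp : p.Prime)
    (hidx : (K ⊓ Subgroup.centralizer (A : Set G)).relIndex K = p) :
    Nat.card (⁅K, A⁆ : Subgroup G) = p := by
  haveI := Fact.mk hp
  set C := K ⊓ Subgroup.centralizer (A : Set G) with hC
  obtain ⟨P, hPK, hPA, hPp, hPc⟩ := exists_invariant_sylow_subgroup hAK hcop hsolv p
  have hCK : C ≤ K := inf_le_left
  -- `C ∩ P` has index `p` in `P`
  have hcard : Nat.card C * p = Nat.card K := by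
    rw [← hidx, ← Nat.card_congr (Subgroup.subgroupOfEquivOfLe hCK).toEquiv]
    exact Subgroup.card_mul_index _
  have hPC : C.relIndex P = p := by
    have hle : C.relIndex P ≤ p := by
      rw [← hidx]
      exact Subgroup.relIndex_le_of_le_right hPK (by rw [hidx]; exact hp.ne_zero)
    obtain ⟨j, hj⟩ := IsPGroup.iff_card.mp hPp
    obtain ⟨i, -, hi⟩ := (Nat.dvd_prime_pow hp).mp
      (hj ▸ (C.subgroupOf P).index_dvd_card)
    replace hi : C.relIndex P = p ^ i := hi
    rcases Nat.eq_zero_or_pos i with rfl | hipos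
    · exfalso
      have hPleC : P ≤ C := Subgroup.relIndex_eq_one.mp (by simpa using hi)
      have hd : p ^ ((Nat.card K).factorization p + 1) ∣ Nat.card K := by
        rw [pow_succ, ← hPc]
        conv_rhs => rw [← hcard]
        exact Nat.mul_dvd_mul_right (Subgroup.card_dvd_of_le hPleC) p
      exact Nat.pow_succ_factorization_not_dvd Nat.card_pos.ne' hp hd
    · refine le_antisymm hle ?_
      rw [hi]
      exact Nat.le_self_pow hipos.ne' p
  set D := P ⊓ C with hD
  have hDC : ∀ x ∈ D, x ∈ Subgroup.centralizer (A : Set G) := fun x hx => hx.2.2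
  have hDidx : (D.subgroupOf P).index = p := by
    rw [hD, Subgroup.inf_subgroupOf_left]; exact hPC
  -- `K = P C`
  have hprod : ∀ k ∈ K, ∃ x ∈ P, x⁻¹ * k ∈ C := by
    intro k hk
    let f : P ⧸ C.subgroupOf P → K ⧸ C.subgroupOf K :=
      Quotient.map' (Subgroup.inclusion hPK) fun a b h => by
        rw [QuotientGroup.leftRel_apply] at h ⊢
        exact h
    have hf : Function.Injective f := by
      intro a b
      refine Quotient.inductionOn₂' a b fun a b h => Quotient.sound' ?_
      have h' : (Quotient.mk'' (Subgroup.inclusion hPK a) : K ⧸ C.subgroupOf K) =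
          Quotient.mk'' (Subgroup.inclusion hPK b) := h
      rw [QuotientGroup.leftRel_apply]
      have h'' := QuotientGroup.leftRel_apply.mp (Quotient.exact' h')
      exact h''
    have hb : Function.Bijective f :=
      (Nat.bijective_iff_injective_and_card f).mpr ⟨hf, hPC.trans hidx.symm⟩
    obtain ⟨q, hq⟩ := hb.2 (Quotient.mk'' ⟨k, hk⟩)
    obtain ⟨x, rfl⟩ := Quotient.mk''_surjective q
    have hq' : (Quotient.mk'' (Subgroup.inclusion hPK x) : K ⧸ C.subgroupOf K) =
        Quotient.mk'' ⟨k, hk⟩ := hq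
    have hq'' := QuotientGroup.leftRel_apply.mp (Quotient.exact' hq')
    exact ⟨x, x.2, hq''⟩
  set M := ⁅P, A⁆ with hM
  have hKM : ⁅K, A⁆ = M := by
    refine le_antisymm ?_ (Subgroup.commutator_mono hPK le_rfl)
    rw [Subgroup.commutator_le]
    intro k hk a ha
    obtain ⟨x, hx, hxk⟩ := hprod k hk
    have e : x⁻¹ * k * a = a * (x⁻¹ * k) :=
      (Subgroup.mem_centralizer_iff.mp hxk.2 a ha).symm
    have : ⁅k, a⁆ = ⁅x, a⁆ := by
      calc ⁅k, a⁆ = x * (x⁻¹ * k * a) * k⁻¹ * a⁻¹ := by rw [commutatorElement_def]; group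
        _ = x * (a * (x⁻¹ * k)) * k⁻¹ * a⁻¹ := by rw [e]
        _ = ⁅x, a⁆ := by rw [commutatorElement_def]; group
    rw [this]
    exact Subgroup.commutator_mem_commutator hx ha
  rw [hKM]
  -- `D` is normal in `P`
  haveI hDn : (D.subgroupOf P).Normal := by
    refine Subgroup.normal_of_index_eq_minFac_card ?_
    obtain ⟨j, hj⟩ := IsPGroup.iff_card.mp hPp
    rcases Nat.eq_zero_or_pos j with rfl | hjpos
    · exfalso
      have h := (D.subgroupOf P).index_dvd_card
      rw [hDidx, hj, pow_zero, Nat.dvd_one] at h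
      exact hp.ne_one h
    · rw [hDidx, hj, hp.pow_minFac hjpos.ne']
  have hPD : ⁅P, D⁆ ≤ D :=
    Subgroup.le_normalizer_iff_commutator_le_right.mp
      ((Subgroup.normal_subgroupOf_iff_le_normalizer inf_le_left).mp hDn)
  have hDA : ⁅D, A⁆ = ⊥ := Subgroup.commutator_eq_bot_iff_le_centralizer.mpr hDC
  have hMD : M ≤ Subgroup.centralizer (D : Set G) := by
    rw [← Subgroup.commutator_eq_bot_iff_le_centralizer, hM, Subgroup.commutator_comm P A]
    refine Subgroup.commutator_commutator_eq_bot_of_rotate ?_ ?_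
    · exact le_bot_iff.mp ((Subgroup.commutator_mono hPD le_rfl).trans hDA.le)
    · rw [hDA, Subgroup.commutator_bot_left]
  have hMP : M ≤ P := commutator_le_of_le_normalizer hPA
  let f : M →* P ⧸ D.subgroupOf P :=
    (QuotientGroup.mk' _).comp (Subgroup.inclusion hMP)
  have hker : ∀ m : M, f m = 1 → (m : G) ∈ D := fun m hm =>
    Subgroup.mem_subgroupOf.mp ((QuotientGroup.eq_one_iff (N := D.subgroupOf P) (Subgroup.inclusion hMP m)).mp hm :)
  haveI : IsCyclic (P ⧸ D.subgroupOf P) := isCyclic_of_prime_card (p := p) hDidx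
  haveI : IsMulCommutative M := by
    refine IsMulCommutative.of_comm (commutative_of_cyclic_center_quotient f fun m hm => ?_)
    rw [Subgroup.mem_center_iff]
    intro y
    exact Subtype.ext (Subgroup.mem_centralizer_iff.mp (hMD y.2) _ (hker m hm)).symm
  have hMA : A ≤ Subgroup.normalizer (M : Set G) := Subgroup.normalizer_commutator_ge_right P A
  have hMM : ⁅M, A⁆ = M :=
    commutator_commutator_eq hPA (coprime_card_mono_right hcop hPK)
      (solvable_or_mono hsolv le_rfl hPK)
  have hfix : (M ⊓ Subgroup.centralizer (A : Set G)) ⊓ ⁅M, A⁆ = ⊥ :=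
    centralizer_inf_commutator_eq_bot hMA (coprime_card_mono_right hcop (hMP.trans hPK))
  rw [hMM] at hfix
  have hinj : Function.Injective f := by
    refine (injective_iff_map_eq_one f).mpr fun m hm => ?_
    have : (m : G) ∈ (M ⊓ Subgroup.centralizer (A : Set G)) ⊓ M :=
      Subgroup.mem_inf.mpr ⟨Subgroup.mem_inf.mpr ⟨m.2, hDC _ (hker m hm)⟩, m.2⟩
    rw [hfix, Subgroup.mem_bot] at this
    exact Subtype.ext this
  have hdvd : Nat.card M ∣ p := hDidx ▸ Subgroup.card_dvd_of_injective f hinj
  refine ((Nat.dvd_prime hp).mp hdvd).resolve_left fun h1 => ?_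
  have hAP := le_centralizer_of_commutator_eq_bot (Subgroup.card_eq_one.mp h1 : ⁅P, A⁆ = ⊥)
  have hPleC : P ≤ C := le_inf hPK fun x hx => Subgroup.mem_centralizer_iff.mpr fun a ha =>
    (Subgroup.mem_centralizer_iff.mp (hAP ha) x hx).symm
  exact hp.ne_one (hPC.symm.trans (Subgroup.relIndex_eq_one.mpr hPleC))

end Cfsg.Agent.H20
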